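import Cfsg.Agent.Lib.TC.Lower

/-!
Stabiliser chains from tight lower bounds for orders: the tails of a chain of words are the pointwise stabilisers, so
that a permutation in the group fixing the points of the chain is trivial.
-/

set_option autoImplicit false

namespace Cfsg.Agent.Lib.FiKit.BaseKit

open Cfsg.Agent.Lib.TC

/-- A subgroup fixing a point, of the largest possible order, is the stabiliser of that point. -/
theorem tight {n : ℕ} (P Q : Subgroup (Equiv.Perm (Fin n))) (p : Fin n) (hQP : Q ≤ P) (hfix : ∀ a ∈ Q, a p = p)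
    (o c : ℕ) (ho : 0 < o) (horb : o ≤ Nat.card (MulAction.orbit P p)) (hc : c ≤ Nat.card Q)
    (hup : Nat.card P ≤ o * c) : Nat.card Q ≤ c ∧ ∀ a ∈ P, a p = p → a ∈ Q := by
  classical
  have hstab : Q.subgroupOf P ≤ MulAction.stabilizer P p := by
    intro a ha
    exact hfix _ (Subgroup.mem_subgroupOf.1 ha)
  have hcQ : Nat.card (Q.subgroupOf P) = Nat.card Q :=
    Nat.card_congr (Subgroup.subgroupOfEquivOfLe hQP).toEquiv
  have hc1 : Nat.card Q ≤ Nat.card (MulAction.stabilizer P p) := by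
    rw [← hcQ]
    exact Subgroup.card_le_of_le hstab
  have hc2 : Nat.card (MulAction.orbit P p) * Nat.card (MulAction.stabilizer P p) = Nat.card P := by
    simpa only [Nat.card_eq_fintype_card] using MulAction.card_orbit_mul_card_stabilizer_eq_card_group P p
  have h3 : o * Nat.card (MulAction.stabilizer P p) ≤ o * c := by
    calc o * Nat.card (MulAction.stabilizer P p)
        ≤ Nat.card (MulAction.orbit P p) * Nat.card (MulAction.stabilizer P p) := Nat.mul_le_mul_right _ horb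
      _ = Nat.card P := hc2
      _ ≤ o * c := hup
  have h4 : Nat.card (MulAction.stabilizer P p) ≤ c := Nat.le_of_mul_le_mul_left h3 ho
  refine ⟨hc1.trans h4, ?_⟩
  intro a ha hap
  have h5 : Q.subgroupOf P = MulAction.stabilizer P p := by
    apply Subgroup.eq_of_le_of_card_ge hstab
    rw [hcQ]
    exact h4.trans hc
  have h6 : (⟨a, ha⟩ : P) ∈ Q.subgroupOf P := by
    rw [h5]
    exact hap
  exact Subgroup.mem_subgroupOf.1 h6

/-- The lower bound for an orbit from its list of entries. -/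
theorem orbit_ge (t : Tbl) (Ws : List (List ℕ)) (hlet : ∀ w ∈ Ws, ∀ g ∈ w, g < t.ng)
    (p : ℕ) (hp : p < t.n) (W : ℕ → List ℕ) (nW : ℕ) (hW : ∀ g, g < nW → W g ∈ Ws)
    (es : List (ℕ × ℕ × ℕ)) (hes : orbFold t.T W nW t.n es (Nat.shiftLeft (nat_lit 1) p) = true) :
    es.length + 1 ≤ Nat.card (MulAction.orbit (t.gp Ws) (⟨p, hp⟩ : Fin t.n)) := by
  classical
  let A := t.gp Ws
  let p' : Fin t.n := ⟨p, hp⟩
  let O : Set ℕ := {i | ∃ a ∈ A, (a p').val = i}
  have hO0 : p ∈ O := ⟨1, one_mem _, rfl⟩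
  have hstep : ∀ q g, q ∈ O → g < nW → walk t.T (W g) q ∈ O := by
    rintro _ g ⟨a, ha, rfl⟩ hg
    have hw := hW g hg
    refine ⟨(evalWord t.perm (W g))⁻¹ * a, mul_mem (inv_mem (Subgroup.subset_closure ⟨_, hw, rfl⟩)) ha, ?_⟩
    rw [Equiv.Perm.mul_apply, t.evalWord_symm_val _ (hlet _ hw)]
  obtain ⟨F', hF', hcard⟩ := orbFold_spec O hstep es (Nat.shiftLeft 1 p) {p} (by
      intro i
      rw [Finset.mem_singleton]
      exact (testBit_shift_one p i).symm) (by simpa using hO0) hes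
  rw [Finset.card_singleton] at hcard
  have hfinj : ∀ x ∈ F', ∃ y : MulAction.orbit A p', y.1.val = x := by
    intro x hx
    obtain ⟨a, ha, rfl⟩ := hF' hx
    exact ⟨⟨a p', ⟨⟨a, ha⟩, rfl⟩⟩, rfl⟩
  have hle : F'.card ≤ Nat.card (MulAction.orbit A p') := by
    rw [Nat.card_eq_fintype_card]
    let f : MulAction.orbit A p' → ℕ := fun y => y.1.val
    have : F' ⊆ Finset.univ.image f := by
      intro x hx
      obtain ⟨y, hy⟩ := hfinj x hx
      exact Finset.mem_image.2 ⟨y, Finset.mem_univ _, hy⟩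
    calc F'.card ≤ (Finset.univ.image f).card := Finset.card_le_card this
      _ ≤ _ := Finset.card_image_le
  have h9 : es.length + 1 = F'.card := by omega
  rw [h9]
  exact hle

/-- A level of a chain of words, with a tight bound: the next tail is the stabiliser. -/
theorem tightD (t : Tbl) (SW : List (List ℕ)) (hlet : ∀ w ∈ SW, ∀ g ∈ w, g < t.ng) (l l' : ℕ) (hll : l ≤ l')
    (p : ℕ) (hp : p < t.n) (hfix : relsOk t.T (SW.drop l') p = true)
    (es : List (ℕ × ℕ × ℕ))
    (hes : orbFold t.T (fun g => wordAt SW (Nat.add g l)) (SW.length - l) t.n es (Nat.shiftLeft (nat_lit 1) p) = true)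
    (b b' : ℕ) (hb : b ≤ Nat.card (t.gp (SW.drop l'))) (hbb : (es.length + 1) * b = b')
    (hup : Nat.card (t.gp (SW.drop l)) ≤ b') :
    Nat.card (t.gp (SW.drop l')) ≤ b ∧
      ∀ a ∈ t.gp (SW.drop l), a ⟨p, hp⟩ = ⟨p, hp⟩ → a ∈ t.gp (SW.drop l') := by
  have hsub : ∀ w ∈ SW.drop l', w ∈ SW.drop l := by
    intro w hw
    exact (List.drop_sublist_drop_left SW hll).subset hw
  have hlet1 : ∀ w ∈ SW.drop l, ∀ g ∈ w, g < t.ng := by
    intro w hw
    exact hlet w (List.mem_of_mem_drop hw)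
  have hle : t.gp (SW.drop l') ≤ t.gp (SW.drop l) := by
    apply (Subgroup.closure_le _).2
    rintro _ ⟨w, hw, rfl⟩
    exact Subgroup.subset_closure ⟨w, hsub w hw, rfl⟩
  refine tight (t.gp (SW.drop l)) (t.gp (SW.drop l')) ⟨p, hp⟩ hle ?_ (es.length + 1) b (by omega) ?_ hb ?_
  · exact t.gp_fix _ (fun w hw => hlet1 w (hsub w hw)) ⟨p, hp⟩ (fun w hw => relsOk_spec hfix w hw)
  · refine orbit_ge t (SW.drop l) hlet1 p hp (fun g => wordAt SW (Nat.add g l)) (SW.length - l) ?_ es hes
    intro g hg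
    show wordAt SW (g + l) ∈ SW.drop l
    rw [wordAt_eq_getD]
    have h1 : g + l < SW.length := by omega
    rw [List.getD_eq_getElem _ _ h1, List.mem_drop_iff_getElem]
    exact ⟨g, by omega, by simp [Nat.add_comm]⟩
  · rw [hbb]
    exact hup

end Cfsg.Agent.Lib.FiKit.BaseKit
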