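import Mathlib

/-!
# Permutation representations on classes of a relation
-/

set_option autoImplicit false

namespace Cfsg.Agent.Lib.FiKit

open Equiv

/-- An action on a set with a compatible equivalence relation gives an action on a set of representatives. -/
theorem exists_hom {G V Y : Type*} [Group G] (act : G →* Perm V) (r : V → V → Prop) (hrefl : ∀ v, r v v)
    (hsymm : ∀ u v, r u v → r v u) (htrans : ∀ u v w, r u v → r v w → r u w)
    (hcompat : ∀ g u v, r u v → r (act g u) (act g v)) (ι : Y → V) (hinj : ∀ y y', r (ι y) (ι y') → y = y')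
    (hsurj : ∀ g y, ∃ y', r (act g (ι y)) (ι y')) :
    ∃ ρ : G →* Perm Y, ∀ g y, r (act g (ι y)) (ι (ρ g y)) := by
  choose f hf using hsurj
  have hone : ∀ y, f 1 y = y := by
    intro y
    have h1 := hf 1 y
    rw [map_one] at h1
    exact (hinj _ _ h1).symm
  have hmul : ∀ g h y, f (g * h) y = f g (f h y) := by
    intro g h y
    have h1 := hf (g * h) y
    have h2 := hcompat g _ _ (hf h y)
    have h3 := hf g (f h y)
    rw [map_mul, Perm.mul_apply] at h1
    exact hinj _ _ (htrans _ _ _ (hsymm _ _ h1) (htrans _ _ _ h2 h3))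
  let ρ : G →* Perm Y :=
    { toFun := fun g =>
        { toFun := f g
          invFun := f g⁻¹
          left_inv := fun y => by
            rw [← hmul, inv_mul_cancel, hone]
          right_inv := fun y => by
            rw [← hmul, mul_inv_cancel, hone] }
      map_one' := by
        ext y
        exact hone y
      map_mul' := fun g h => by
        ext y
        exact hmul g h y }
  exact ⟨ρ, fun g y => hf g y⟩

/-- Two permutation representations with the same image. -/
theorem exists_quot_hom {C S Y : Type*} [Group C] [Group S] (ρ₁ : C →* Perm Y) (π : S →* Perm Y)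
    (heq : π.range = ρ₁.range) : ∃ ρ : C →* (S ⧸ π.ker), Function.Surjective ρ ∧ ∀ x, ρ x = 1 ↔ ρ₁ x = 1 := by
  let e : S ⧸ π.ker ≃* π.range := QuotientGroup.quotientKerEquivRange π
  let r₁ : C →* π.range := ρ₁.codRestrict π.range (fun x => by rw [heq]; exact ⟨x, rfl⟩)
  refine ⟨e.symm.toMonoidHom.comp r₁, ?_, ?_⟩
  · intro y
    obtain ⟨w, hw⟩ : ∃ x, r₁ x = e y := by
      have h1 : ((e y : π.range) : Perm Y) ∈ ρ₁.range := by
        rw [← heq]
        exact (e y).2
      obtain ⟨x, hx⟩ := h1
      exact ⟨x, Subtype.ext hx⟩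
    refine ⟨w, ?_⟩
    show e.symm (r₁ w) = y
    rw [hw, e.symm_apply_apply]
  · intro x
    show e.symm (r₁ x) = 1 ↔ _
    rw [map_eq_one_iff _ e.symm.injective]
    constructor
    · intro h
      have := congrArg Subtype.val h
      exact this
    · intro h
      exact Subtype.ext h

end Cfsg.Agent.Lib.FiKit
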