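import Cfsg.Agent.Lib.FiKit.J1Tab.Main
import Cfsg.Agent.Lib.J1S.Simple

/-!
The relators of the certificate hold in the concrete group `J₁`, for two generators given as words.
-/

set_option autoImplicit false

namespace Cfsg.Agent.Lib.FiKit.J1Con

open Cfsg.Agent.Lib.TC Cfsg.Agent.Lib.FiKit.TwoGen Cfsg.Agent.Lib.J1S Cfsg.Agent.Lib.Compute
open Cfsg.Agent.Lib.KnownSimple.PE Cfsg.Agent.Lib.KnownSimple.J1 Cfsg.Agent.Lib.KnownSimple.J1Data

def la : List ℕ := [1, 2, 1, 2, 2]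
def lb : List ℕ := [1, 0, 2, 0, 2, 1, 0, 0, 0, 1, 0, 1, 1, 0, 2, 0, 2, 1, 0, 0, 1, 0, 2, 0, 2, 1, 0, 0, 1, 0, 2, 0, 2, 1, 0, 0, 1, 0, 2, 0, 2, 1, 0, 0, 1, 0, 2, 0, 2, 1, 0, 0, 1, 0, 2, 0, 2, 1, 0, 0, 1, 0, 2, 0, 2, 1, 0, 0, 1, 0, 2, 0, 2, 1, 0, 0, 1, 0, 2, 0, 2, 1, 0, 0, 1, 0, 2, 0, 2, 1, 0, 0, 1, 0, 2, 0, 2, 1, 0, 0, 1, 0, 2, 0, 2, 1, 0, 0, 1, 0, 2, 0, 2, 1, 0, 0, 1, 0, 2, 0, 2, 1, 0, 0]
def lw : List ℕ := [0, 1, 1, 0, 1, 0, 1, 0, 1, 1, 0, 1, 0, 1, 1, 0, 1, 0, 1, 1, 0, 1, 0, 1, 0, 1, 1, 0, 1, 1, 0, 1, 0, 1, 0, 1, 1, 0, 1, 0, 1, 1, 0, 1, 1, 0, 1, 0]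
def lu : List ℕ := [0, 1, 1, 0, 1, 1, 0, 1, 0, 1, 1, 0, 1, 0, 1, 1, 0, 1, 0, 1]
def lx : List ℕ := [0]

noncomputable def a0 : G := wd3 la
noncomputable def b0 : G := wd3 lb

noncomputable def ca : ℕ → ℕ := evW cs3 la
noncomputable def cb : ℕ → ℕ := evW cs3 lb

theorem code_a : E.IsCode ((a0 : G) : Equiv.Perm (Fin N)) ca := code_wd3 la
theorem code_b : E.IsCode ((b0 : G) : Equiv.Perm (Fin N)) cb := code_wd3 lb

theorem b_cube : b0 * b0 * b0 = 1 :=
  eq_of_codes (coe_code_mul (coe_code_mul code_b code_b) code_b) (isCode_one E) (by decide +kernel) (by decide +kernel)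

theorem b_inv : b0⁻¹ = b0 * b0 := by
  rw [inv_eq_iff_mul_eq_one]
  rw [← mul_assoc]
  exact b_cube

/-- The codes of the letters. -/
noncomputable def cc : ℕ → ℕ → ℕ
  | 0 => ca
  | 1 => cb
  | 2 => fun i => cb (cb i)
  | _ => fun i => i

theorem code_cc (i : ℕ) : E.IsCode ((vv a0 b0 i : G) : Equiv.Perm (Fin N)) (cc i) := by
  match i with
  | 0 => exact code_a
  | 1 => exact code_b
  | 2 =>
    rw [vv_two, b_inv]
    show E.IsCode _ (fun i => cb (cb i))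
    exact coe_code_mul code_b code_b
  | (k + 3) => exact isCode_one E

theorem allRel : J1Tab.rels.all (fun w => Nat.beq (evW cc w 10) 10 && Nat.beq (evW cc w 0) 0) = true := by
  decide +kernel

theorem rel0 : ∀ w ∈ J1Tab.rels, evalWord (vv a0 b0) w = 1 := by
  intro w hw
  have h := List.all_eq_true.1 allRel w hw
  simp only [Bool.and_eq_true] at h
  rw [evalWord_eq_prod]
  exact eq_of_codes (isCode_ev _ cc code_cc w) (isCode_one E) (Nat.eq_of_beq_eq_true h.1) (Nat.eq_of_beq_eq_true h.2)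

theorem prod_mem (K : Subgroup G) (ha : a0 ∈ K) (hb : b0 ∈ K) (l : List ℕ) (hl : ∀ i ∈ l, i < 2) :
    (l.map (vv a0 b0)).prod ∈ K := by
  apply Subgroup.list_prod_mem
  intro y hy
  obtain ⟨i, hi, rfl⟩ := List.mem_map.1 hy
  have := hl i hi
  match i, this with
  | 0, _ => exact ha
  | 1, _ => exact hb

theorem gen0 : Subgroup.closure ({a0, b0} : Set G) = ⊤ := by
  set K := Subgroup.closure ({a0, b0} : Set G) with hK
  have ha : a0 ∈ K := Subgroup.subset_closure (Set.mem_insert _ _)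
  have hb : b0 ∈ K := Subgroup.subset_closure (Set.mem_insert_of_mem _ rfl)
  have hmem : ∀ (l : List ℕ) (y : G) (f : ℕ → ℕ), (∀ i ∈ l, i < 2) → E.IsCode ((y : G) : Equiv.Perm (Fin N)) f →
      evW cc l 10 = f 10 → evW cc l 0 = f 0 → y ∈ K := by
    intro l y f hl hf h1 h2
    have h3 : (l.map (vv a0 b0)).prod = y := eq_of_codes (isCode_ev _ cc code_cc l) hf h1 h2
    rw [← h3]
    exact prod_mem K ha hb l hl
  rw [eq_top_iff, ← closure_top, Subgroup.closure_le]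
  rintro y (rfl | rfl | rfl)
  · exact hmem lw _ _ (by decide +kernel) code_w (by decide +kernel) (by decide +kernel)
  · exact hmem lu _ _ (by decide +kernel) code_u (by decide +kernel) (by decide +kernel)
  · exact hmem lx _ _ (by decide +kernel) code_x (by decide +kernel) (by decide +kernel)

/-- A nontrivial group generated by two elements satisfying the relators is simple of the order of `J₁`. -/
theorem isJ1_of_relators {K : Type} [Group K] (a b : K) (hrel : ∀ w ∈ J1Tab.rels, evalWord (vv a b) w = 1)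
    (hgen : Subgroup.closure ({a, b} : Set K) = ⊤) (hne : a ≠ 1) : IsSimpleGroup K ∧ Nat.card K = 175560 :=
  simple_of_relators (G := G) 175560 J1Tab.rels (fun X _ x y h1 h2 => J1Tab.bound X x y h1 h2) simple_G card_G a b a0 b0
    hrel rel0 hgen gen0 hne

end Cfsg.Agent.Lib.FiKit.J1Con
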