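import Cfsg.Agent.Lib.FiKit.M11Tab.Main
import Cfsg.Agent.Lib.KnownSimple.MultM.Math
import Cfsg.Agent.Lib.Golay.SimpleGroups

/-!
The relators of the certificate hold in the concrete group `M₁₁`, for two generators given as words.
-/

set_option autoImplicit false

namespace Cfsg.Agent.Lib.FiKit.M11Con

open Cfsg Cfsg.Spor Cfsg.Agent.Lib.Compute Cfsg.Agent.Lib.Golay Cfsg.Agent.Lib.KnownSimple.CodeCalc
open Cfsg.Agent.Lib.KnownSimple.MathieuData Cfsg.Agent.Lib.KnownSimple.MathieuFacts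
open Cfsg.Agent.Lib.KnownSimple.MathieuGen Cfsg.Agent.Lib.KnownSimple.MultC Cfsg.Agent.Lib.KnownSimple.MathieuOut
open Cfsg.Agent.Lib.KnownSimple.MultM Cfsg.Agent.Lib.KnownSimple.PE
open Cfsg.Agent.Lib.TC Cfsg.Agent.Lib.FiKit.TwoGen
open scoped Pointwise

/-- The group. -/
abbrev G11 : Type := ↥M11

theorem simple_G11 : IsSimpleGroup G11 := by
  have h := simple_stabilizer_flag squareDodecad_mem some0_mem
  have e : MulAction.stabilizer M24 squareDodecad ⊓ MulAction.stabilizer M24 (some 0 : GolayPt) =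
      M11.subgroupOf M24 := by
    ext u
    rw [Subgroup.mem_subgroupOf, Subgroup.mem_inf, MulAction.mem_stabilizer_iff, MulAction.mem_stabilizer_iff, M11, M12,
      Subgroup.mem_inf, Subgroup.mem_inf, MulAction.mem_stabilizer_iff, MulAction.mem_stabilizer_iff]
    exact ⟨fun h => ⟨⟨u.2, h.1⟩, h.2⟩, fun h => ⟨h.1.2, h.2⟩⟩
  rw [e] at h
  exact (Subgroup.subgroupOfEquivOfLe M11_le).symm.isSimpleGroup

noncomputable def gU : G11 := ⟨U, R11.memW⟩
noncomputable def gX : G11 := ⟨X, memX_M11⟩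
noncomputable def gY : G11 := ⟨Y4', R11.memX⟩

/-- The letters. -/
noncomputable def gs3 : ℕ → G11
  | 0 => gU
  | 1 => gX
  | 2 => gY
  | _ => 1

/-- The codes of the letters. -/
noncomputable def cs3 : ℕ → ℕ → ℕ
  | 0 => pc pU
  | 1 => pc pX
  | 2 => pc pY4'
  | _ => fun i => i

theorem code3 (i : ℕ) : enc.IsCode ((gs3 i : G11) : P24) (cs3 i) := by
  match i with
  | 0 => exact code_U
  | 1 => exact code_X
  | 2 => exact code_Y4'
  | (k + 3) => exact Cfsg.Agent.Lib.KnownSimple.PE.isCode_one enc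

def la : List ℕ := [2, 2]
def lb : List ℕ := [2, 1, 1, 1, 0, 1, 1]
def lu : List ℕ := [1, 0, 1, 1, 1, 0, 1, 1, 0, 1, 0, 1, 0, 1, 0, 1, 1, 1, 0, 1, 0, 1]
def lx : List ℕ := [0, 1, 0, 1, 0, 1, 1, 0, 1, 1, 1, 0, 1, 1, 1]
def ly : List ℕ := [1, 0, 1, 1, 0, 1, 0, 1, 0, 1, 0, 1, 1, 0, 1, 1, 1, 0, 1]

noncomputable def a0 : G11 := (la.map gs3).prod
noncomputable def b0 : G11 := (lb.map gs3).prod

noncomputable def ca : ℕ → ℕ := evW cs3 la
noncomputable def cb : ℕ → ℕ := evW cs3 lb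

theorem code_a : enc.IsCode ((a0 : G11) : P24) ca := Cfsg.Agent.Lib.KnownSimple.PE.isCode_ev gs3 cs3 code3 la
theorem code_b : enc.IsCode ((b0 : G11) : P24) cb := Cfsg.Agent.Lib.KnownSimple.PE.isCode_ev gs3 cs3 code3 lb

theorem eq_of_codes' {x y : G11} {f g : ℕ → ℕ} (h1 : enc.IsCode ((x : G11) : P24) f)
    (h2 : enc.IsCode ((y : G11) : P24) g) (h : allBelow (fun i => Nat.beq (f i) (g i)) 24 = true) : x = y := by
  apply Subtype.ext
  exact eq_of_code enc h1 h2 fun i hi => Nat.eq_of_beq_eq_true ((allBelow_iff _ _).1 h i hi)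

theorem b_four : b0 * (b0 * (b0 * b0)) = 1 :=
  eq_of_codes' (Cfsg.Agent.Lib.KnownSimple.PE.isCode_mul code_b (Cfsg.Agent.Lib.KnownSimple.PE.isCode_mul code_b (Cfsg.Agent.Lib.KnownSimple.PE.isCode_mul code_b code_b))) (Cfsg.Agent.Lib.KnownSimple.PE.isCode_one enc) (by decide +kernel)

theorem b_inv : b0⁻¹ = b0 * (b0 * b0) := by
  rw [inv_eq_iff_mul_eq_one]
  exact b_four

/-- The codes of the letters. -/
noncomputable def cc : ℕ → ℕ → ℕ
  | 0 => ca
  | 1 => cb
  | 2 => fun i => cb (cb (cb i))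
  | _ => fun i => i

theorem code_cc (i : ℕ) : enc.IsCode ((vv a0 b0 i : G11) : P24) (cc i) := by
  match i with
  | 0 => exact code_a
  | 1 => exact code_b
  | 2 =>
    rw [vv_two, b_inv]
    show enc.IsCode _ (fun i => cb (cb (cb i)))
    exact Cfsg.Agent.Lib.KnownSimple.PE.isCode_mul code_b (Cfsg.Agent.Lib.KnownSimple.PE.isCode_mul code_b code_b)
  | (k + 3) => exact Cfsg.Agent.Lib.KnownSimple.PE.isCode_one enc

theorem allRel : M11Tab.rels.all (fun w => allBelow (fun i => Nat.beq (evW cc w i) i) 24) = true := by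
  decide +kernel

theorem rel0 : ∀ w ∈ M11Tab.rels, evalWord (vv a0 b0) w = 1 := by
  intro w hw
  have h := List.all_eq_true.1 allRel w hw
  rw [evalWord_eq_prod]
  exact eq_of_codes' (Cfsg.Agent.Lib.KnownSimple.PE.isCode_ev _ cc code_cc w) (Cfsg.Agent.Lib.KnownSimple.PE.isCode_one enc) h

theorem prod_mem (K : Subgroup G11) (ha : a0 ∈ K) (hb : b0 ∈ K) (l : List ℕ) (hl : ∀ i ∈ l, i < 2) :
    (l.map (vv a0 b0)).prod ∈ K := by
  apply Subgroup.list_prod_mem
  intro y hy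
  obtain ⟨i, hi, rfl⟩ := List.mem_map.1 hy
  have := hl i hi
  match i, this with
  | 0, _ => exact ha
  | 1, _ => exact hb

theorem gen0 : Subgroup.closure ({a0, b0} : Set G11) = ⊤ := by
  set K := Subgroup.closure ({a0, b0} : Set G11) with hK
  have ha : a0 ∈ K := Subgroup.subset_closure (Set.mem_insert _ _)
  have hb : b0 ∈ K := Subgroup.subset_closure (Set.mem_insert_of_mem _ rfl)
  have hmem : ∀ (l : List ℕ) (y : G11) (f : ℕ → ℕ), (∀ i ∈ l, i < 2) → enc.IsCode ((y : G11) : P24) f →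
      allBelow (fun i => Nat.beq (evW cc l i) (f i)) 24 = true → y ∈ K := by
    intro l y f hl hf h1
    have h3 : (l.map (vv a0 b0)).prod = y := eq_of_codes' (Cfsg.Agent.Lib.KnownSimple.PE.isCode_ev _ cc code_cc l) hf h1
    rw [← h3]
    exact prod_mem K ha hb l hl
  have hU : gU ∈ K := hmem lu _ _ (by decide +kernel) code_U (by decide +kernel)
  have hX : gX ∈ K := hmem lx _ _ (by decide +kernel) code_X (by decide +kernel)
  have hY : gY ∈ K := hmem ly _ _ (by decide +kernel) code_Y4' (by decide +kernel)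
  rw [eq_top_iff]
  rintro ⟨σ, hσ⟩ -
  have h1 := gen_M11 σ hσ
  have h2 : Subgroup.closure ({U, X, Y4'} : Set P24) ≤ K.map M11.subtype := by
    rw [Subgroup.closure_le]
    rintro t (rfl | rfl | rfl)
    · exact ⟨gU, hU, rfl⟩
    · exact ⟨gX, hX, rfl⟩
    · exact ⟨gY, hY, rfl⟩
  obtain ⟨z, hz, hzσ⟩ := h2 h1
  have : z = ⟨σ, hσ⟩ := Subtype.ext hzσ
  rw [← this]
  exact hz

/-- A nontrivial group generated by two elements satisfying the relators is simple of the order of `M₁₁`. -/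
theorem isM11_of_relators {K : Type} [Group K] (a b : K) (hrel : ∀ w ∈ M11Tab.rels, evalWord (vv a b) w = 1)
    (hgen : Subgroup.closure ({a, b} : Set K) = ⊤) (hne : a ≠ 1) : IsSimpleGroup K ∧ Nat.card K = 7920 :=
  simple_of_relators (G := G11) 7920 M11Tab.rels (fun X _ x y h1 h2 => M11Tab.bound X x y h1 h2) simple_G11 card_M11 a b a0 b0
    hrel rel0 hgen gen0 hne

end Cfsg.Agent.Lib.FiKit.M11Con
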