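import Cfsg.Prelude.Def_Sporadic
import Cfsg.Agent.Lib.TC.Data.ONMain
import Cfsg.Agent.Lib.TC.Fast.Bridge
import Cfsg.Agent.Lib.FiKit.BaseKit
import Cfsg.Agent.Lib.FiKit.J1Con
import Cfsg.Agent.Lib.FiKit.M11Con

/-!
The presented O'Nan group on the points of its coset table: a base of the action, and subgroups isomorphic to the
simple groups of orders `175560` and `7920` generated by two words.
-/

set_option autoImplicit false

namespace Cfsg.Agent.Lib.FiKit.ONSub

open Cfsg.Agent.Lib.TC Cfsg.Agent.Lib.TC.Fast Cfsg.Agent.Lib.TC.Data Cfsg.Agent.Lib.FiKit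
open Cfsg.Agent.Lib.FiKit.TwoGen Cfsg.Agent.Lib.FiKit.BaseKit

noncomputable abbrev S := ONMain.S
noncomputable abbrev C := ONMain.C
abbrev PG : Type := PresentedGroup S.rels
noncomputable abbrev φ : PG →* Equiv.Perm (Fin C.n) := C.tableData.φ
noncomputable abbrev t : Tbl := ONLev.t

theorem hinj : Function.Injective φ := ONMain.faith.1

theorem card_range : Nat.card φ.range = 460815505920 := by
  rw [← Nat.card_congr (MonoidHom.ofInjective hinj).toEquiv]
  exact ONMain.main.2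

theorem hfixSW : relsOk ONa.tT ONLev.SW 0 = true := by
  rw [← relsF_eq]
  decide +kernel

theorem orbit_range (p : Fin C.n) : MulAction.orbit φ.range p = Set.univ := by
  ext i
  simp only [Set.mem_univ, iff_true]
  obtain ⟨g1, h1⟩ := C.trans p
  obtain ⟨g2, h2⟩ := C.trans i
  refine ⟨⟨φ (g2 * g1⁻¹), g2 * g1⁻¹, rfl⟩, ?_⟩
  show φ (g2 * g1⁻¹) p = i
  have h3 : (φ g1)⁻¹ p = ⟨0, C.hn⟩ := by
    rw [Equiv.Perm.inv_eq_iff_eq]
    exact h1.symm
  rw [map_mul, map_inv, Equiv.Perm.mul_apply, h3, h2]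

theorem card_orbit_range (p : Fin C.n) : Nat.card (MulAction.orbit φ.range p) = 122760 := by
  rw [orbit_range, Nat.card_coe_set_eq, Set.ncard_univ, Nat.card_eq_fintype_card, Fintype.card_fin]
  rfl

theorem lev0 : Nat.card (t.gp (ONLev.SW.drop 0)) ≤ 3753792 ∧
    ∀ a ∈ φ.range, a ⟨0, C.hn⟩ = ⟨0, C.hn⟩ → a ∈ t.gp (ONLev.SW.drop 0) := by
  refine tight φ.range (t.gp (ONLev.SW.drop 0)) ⟨0, C.hn⟩ (C.tableData.gp_le_range _ ?_) ?_ 122760 3753792 (by norm_num)
    (card_orbit_range _).ge ONLev.L0 ?_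
  · intro w hw
    exact ONLev.hlet w (List.mem_of_mem_drop hw)
  · exact t.gp_fix _ (fun w hw => ONLev.hlet w (List.mem_of_mem_drop hw)) ⟨0, C.hn⟩
      (fun w hw => relsOk_spec hfixSW w (List.mem_of_mem_drop hw))
  · rw [card_range]

theorem p1 : 110790 < C.n := by decide +kernel
theorem p2 : 58654 < C.n := by decide +kernel
theorem p3 : 58658 < C.n := by decide +kernel
theorem p4 : 58555 < C.n := by decide +kernel
theorem p5 : 80918 < C.n := by decide +kernel

theorem lev1 : Nat.card (t.gp (ONLev.SW.drop 6)) ≤ 672 ∧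
    ∀ a ∈ t.gp (ONLev.SW.drop 0), a ⟨110790, p1⟩ = ⟨110790, p1⟩ → a ∈ t.gp (ONLev.SW.drop 6) :=
  tightD t ONLev.SW ONLev.hlet 0 6 (by decide) 110790 p1 ONLev.fix0 ONLev.es0 ONLev.orb0 672 3753792
    ONLev.L1 (by decide +kernel) lev0.1
theorem lev2 : Nat.card (t.gp (ONLev.SW.drop 10)) ≤ 24 ∧
    ∀ a ∈ t.gp (ONLev.SW.drop 6), a ⟨58654, p2⟩ = ⟨58654, p2⟩ → a ∈ t.gp (ONLev.SW.drop 10) :=
  tightD t ONLev.SW ONLev.hlet 6 10 (by decide) 58654 p2 ONLev.fix1 ONLev.es1 ONLev.orb1 24 672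
    ONLev.L2 (by decide +kernel) lev1.1
theorem lev3 : Nat.card (t.gp (ONLev.SW.drop 13)) ≤ 6 ∧
    ∀ a ∈ t.gp (ONLev.SW.drop 10), a ⟨58658, p3⟩ = ⟨58658, p3⟩ → a ∈ t.gp (ONLev.SW.drop 13) :=
  tightD t ONLev.SW ONLev.hlet 10 13 (by decide) 58658 p3 ONLev.fix2 ONLev.es2 ONLev.orb2 6 24
    ONLev.L3 (by decide +kernel) lev2.1
theorem lev4 : Nat.card (t.gp (ONLev.SW.drop 15)) ≤ 2 ∧
    ∀ a ∈ t.gp (ONLev.SW.drop 13), a ⟨58555, p4⟩ = ⟨58555, p4⟩ → a ∈ t.gp (ONLev.SW.drop 15) :=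
  tightD t ONLev.SW ONLev.hlet 13 15 (by decide) 58555 p4 ONLev.fix3 ONLev.es3 ONLev.orb3 2 6
    ONLev.L4 (by decide +kernel) lev3.1
theorem lev5 : Nat.card (t.gp (ONLev.SW.drop 16)) ≤ 1 ∧
    ∀ a ∈ t.gp (ONLev.SW.drop 15), a ⟨80918, p5⟩ = ⟨80918, p5⟩ → a ∈ t.gp (ONLev.SW.drop 16) :=
  tightD t ONLev.SW ONLev.hlet 15 16 (by decide) 80918 p5 ONLev.fix4 ONLev.es4 ONLev.orb4 1 2
    ONLev.L5 (by decide +kernel) lev4.1

/-- A permutation in the group fixing the points of the base is trivial. -/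
theorem eq_one_of_base (a : Equiv.Perm (Fin C.n)) (ha : a ∈ φ.range) (h0 : a ⟨0, C.hn⟩ = ⟨0, C.hn⟩)
    (h1 : a ⟨110790, p1⟩ = ⟨110790, p1⟩) (h2 : a ⟨58654, p2⟩ = ⟨58654, p2⟩) (h3 : a ⟨58658, p3⟩ = ⟨58658, p3⟩)
    (h4 : a ⟨58555, p4⟩ = ⟨58555, p4⟩) (h5 : a ⟨80918, p5⟩ = ⟨80918, p5⟩) : a = 1 := by
  have m0 := lev0.2 a ha h0
  have m1 := lev1.2 a m0 h1
  have m2 := lev2.2 a m1 h2
  have m3 := lev3.2 a m2 h3
  have m4 := lev4.2 a m3 h4
  have m5 := lev5.2 a m4 h5
  have e : ONLev.SW.drop 16 = [] := by decide +kernel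
  rw [e] at m5
  have e2 : t.gp [] = ⊥ := by
    unfold Tbl.gp
    simp
  rw [e2] at m5
  exact Subgroup.mem_bot.1 m5

theorem fix_of_walk {W : List ℕ} (hW : ∀ g ∈ W, g < S.ng) (i : Fin C.n) (h : walk ONa.tT W i = i) :
    φ (evalWord S.v W) i = i := by
  have h1 : ((φ (evalWord S.v W))⁻¹ i).val = walk C.tableData.T W i := C.tableData.walk_eq hW i
  have h2 : (φ (evalWord S.v W))⁻¹ i = i := Fin.ext (h1.trans h)
  rw [Equiv.Perm.inv_eq_iff_eq] at h2
  exact h2.symm

/-- A word fixing the points of the base is trivial. -/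
theorem eval_one (W : List ℕ) (hlet : ∀ g ∈ W, g < 8)
    (h0 : walk ONa.tT W 0 = 0) (h1 : walk ONa.tT W 110790 = 110790) (h2 : walk ONa.tT W 58654 = 58654)
    (h3 : walk ONa.tT W 58658 = 58658) (h4 : walk ONa.tT W 58555 = 58555) (h5 : walk ONa.tT W 80918 = 80918) :
    evalWord S.v W = 1 := by
  apply hinj
  rw [map_one]
  refine eq_one_of_base _ ⟨_, rfl⟩ ?_ ?_ ?_ ?_ ?_ ?_
  · exact fix_of_walk hlet _ h0
  · exact fix_of_walk hlet _ h1
  · exact fix_of_walk hlet _ h2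
  · exact fix_of_walk hlet _ h3
  · exact fix_of_walk hlet _ h4
  · exact fix_of_walk hlet _ h5

/-- Expansion of the letters. -/
def ex (wb wbi : List ℕ) : ℕ → List ℕ
  | 0 => [0]
  | 1 => wb
  | 2 => wbi
  | _ => []

/-- The table of the expanded letters. -/
noncomputable def tX (wb wbi : List ℕ) (i l : ℕ) : ℕ := walkF ONa.tT (ex wb wbi l) i

theorem walk_tX (wb wbi w : List ℕ) (i : ℕ) :
    walk (tX wb wbi) w i = walk ONa.tT (w.flatMap (ex wb wbi)) i := by
  induction w generalizing i with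
  | nil => rfl
  | cons l w ih =>
    rw [List.flatMap_cons, walk_append, walk_cons, ih]
    congr 1
    exact walkF_eq _ _ _

theorem letters_ex {wb wbi : List ℕ} (hb : ∀ g ∈ wb, g < 8) (hbi : ∀ g ∈ wbi, g < 8) (w : List ℕ) :
    ∀ g ∈ w.flatMap (ex wb wbi), g < 8 := by
  intro g hg
  obtain ⟨l, _, hl⟩ := List.mem_flatMap.1 hg
  match l, hl with
  | 0, hl =>
    have : g = 0 := List.mem_singleton.1 hl
    omega
  | 1, hl => exact hb g hl
  | 2, hl => exact hbi g hl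
  | (k + 3), hl => exact absurd hl (List.not_mem_nil)

/-- The relators of a list, fixing the points of the base, are trivial. -/
theorem eval_rels {wb wbi : List ℕ} (hb : ∀ g ∈ wb, g < 8) (hbi : ∀ g ∈ wbi, g < 8) (R : List (List ℕ))
    (h0 : relsF (tX wb wbi) R 0 = true) (h1 : relsF (tX wb wbi) R 110790 = true)
    (h2 : relsF (tX wb wbi) R 58654 = true) (h3 : relsF (tX wb wbi) R 58658 = true)
    (h4 : relsF (tX wb wbi) R 58555 = true) (h5 : relsF (tX wb wbi) R 80918 = true) :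
    ∀ w ∈ R, evalWord S.v (w.flatMap (ex wb wbi)) = 1 := by
  intro w hw
  rw [relsF_eq] at h0 h1 h2 h3 h4 h5
  refine eval_one _ (letters_ex hb hbi w) ?_ ?_ ?_ ?_ ?_ ?_
  · rw [← walk_tX]; exact relsOk_spec h0 w hw
  · rw [← walk_tX]; exact relsOk_spec h1 w hw
  · rw [← walk_tX]; exact relsOk_spec h2 w hw
  · rw [← walk_tX]; exact relsOk_spec h3 w hw
  · rw [← walk_tX]; exact relsOk_spec h4 w hw
  · rw [← walk_tX]; exact relsOk_spec h5 w hw

theorem eval_exp {wb wbi : List ℕ} (h : evalWord S.v wbi = (evalWord S.v wb)⁻¹) (w : List ℕ) :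
    evalWord S.v (w.flatMap (ex wb wbi)) = evalWord (vv (evalWord S.v [0]) (evalWord S.v wb)) w := by
  induction w with
  | nil => rfl
  | cons l w ih =>
    rw [List.flatMap_cons, evalWord_app, ih, evalWord_cons]
    congr 1
    match l with
    | 0 => rfl
    | 1 => rfl
    | 2 => exact h
    | (k + 3) => rfl

/-- The first letter is nontrivial. -/
theorem x_ne : evalWord S.v [0] ≠ 1 := by
  intro h
  have h1 := C.tableData.walk_eq (w := [0]) (by decide +kernel) ⟨2, by decide +kernel⟩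
  rw [h, map_one, inv_one] at h1
  have h2 : (2 : ℕ) = ONa.tT 2 0 := h1
  exact absurd h2 (by decide +kernel)

/-- The subgroups generated by the images of two elements satisfying relators. -/
theorem sub_of_relators (x y : PG) (R : List (List ℕ)) (hrel : ∀ w ∈ R, evalWord (vv x y) w = 1) (hx : x ≠ 1)
    (Pr : (X : Type) → [Group X] → Prop)
    (hP : ∀ (X : Type) [Group X] (a b : X), (∀ w ∈ R, evalWord (vv a b) w = 1) →
      Subgroup.closure ({a, b} : Set X) = ⊤ → a ≠ 1 → Pr X) :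
    ∃ K : Subgroup φ.range, Pr K := by
  let f : PG →* φ.range := φ.rangeRestrict
  let p : φ.range := f x
  let q : φ.range := f y
  let K : Subgroup φ.range := Subgroup.closure ({p, q} : Set φ.range)
  let a : K := ⟨p, Subgroup.subset_closure (Set.mem_insert _ _)⟩
  let b : K := ⟨q, Subgroup.subset_closure (Set.mem_insert_of_mem _ rfl)⟩
  refine ⟨K, hP K a b ?_ ?_ ?_⟩
  · intro w hw
    apply Subtype.ext
    have e1 : K.subtype (evalWord (vv a b) w) = evalWord (vv p q) w := map_eval_vv K.subtype a b w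
    have e2 : f (evalWord (vv x y) w) = evalWord (vv p q) w := map_eval_vv f x y w
    rw [hrel w hw, map_one] at e2
    exact e1.trans e2.symm
  · have h1 := Subgroup.closure_closure_coe_preimage (k := ({p, q} : Set φ.range))
    have h2 : (((↑) : K → φ.range) ⁻¹' ({p, q} : Set φ.range)) = ({a, b} : Set K) := by
      ext z
      constructor
      · rintro (h | h)
        · exact Or.inl (Subtype.ext h)
        · exact Or.inr (Subtype.ext h)
      · rintro (h | h)
        · rw [h]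
          exact Or.inl rfl
        · rw [h]
          exact Or.inr rfl
    rw [← h2]
    exact h1
  · intro h
    apply hx
    apply hinj
    have h1 : (a : φ.range) = 1 := congrArg Subtype.val h
    have h2 : ((a : φ.range) : Equiv.Perm (Fin C.n)) = 1 := congrArg Subtype.val h1
    rw [map_one]
    exact h2

/-! ### The first Janko group -/

def wJ : List ℕ := [6,5,1,5,2,1,3,4,2,0,5,1,3,6,2,3,1,2,0,1,2,1,3,2,7,3,1,5,0,2,4,3,1,2,5,1,5,7]
def wJi : List ℕ := [6,5,1,5,2,1,3,4,2,0,5,1,3,6,2,3,1,2,1,0,2,1,3,2,7,3,1,5,0,2,4,3,1,2,5,1,5,7]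

theorem wJ_let : ∀ g ∈ wJ, g < 8 := by decide +kernel
theorem wJi_let : ∀ g ∈ wJi, g < 8 := by decide +kernel
theorem RJ0 : relsF (tX wJ wJi) J1Tab.rels 0 = true := by decide +kernel
theorem RJ1 : relsF (tX wJ wJi) J1Tab.rels 110790 = true := by decide +kernel
theorem RJ2 : relsF (tX wJ wJi) J1Tab.rels 58654 = true := by decide +kernel
theorem RJ3 : relsF (tX wJ wJi) J1Tab.rels 58658 = true := by decide +kernel
theorem RJ4 : relsF (tX wJ wJi) J1Tab.rels 58555 = true := by decide +kernel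
theorem RJ5 : relsF (tX wJ wJi) J1Tab.rels 80918 = true := by decide +kernel

theorem RJ_one : ∀ w ∈ J1Tab.rels, evalWord S.v (w.flatMap (ex wJ wJi)) = 1 :=
  eval_rels wJ_let wJi_let _ RJ0 RJ1 RJ2 RJ3 RJ4 RJ5

theorem inv_J : evalWord S.v wJi = (evalWord S.v wJ)⁻¹ := by
  have h := RJ_one [1, 2] (by decide +kernel)
  have e : ([1, 2] : List ℕ).flatMap (ex wJ wJi) = wJ ++ wJi := by
    simp [ex]
  rw [e, evalWord_app] at h
  exact eq_inv_of_mul_eq_one_right h

theorem rel_J : ∀ w ∈ J1Tab.rels, evalWord (vv (evalWord S.v [0]) (evalWord S.v wJ)) w = 1 := by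
  intro w hw
  rw [← eval_exp inv_J]
  exact RJ_one w hw

theorem exists_J1 : ∃ K : Subgroup φ.range, Cfsg.IsJ1 K :=
  sub_of_relators _ _ J1Tab.rels rel_J x_ne (fun X _ => Cfsg.IsJ1 X)
    (fun X _ a b h1 h2 h3 => J1Con.isJ1_of_relators a b h1 h2 h3)

/-! ### The smallest Mathieu group -/

def wM : List ℕ := [0,2,1,0,5,2,4,3,4,5,1,2,1,5,3,2,4,3,5,7,1,6,0,4,2,3,0,2,2,3,2,3,2,0,3,2,4,0,7,1,6,5,3,4,2,3,5,1,2,1,5,4,3,4,2,5,0,1,2,0]
def wMi : List ℕ := [0,2,1,0,5,2,4,3,4,5,1,2,1,5,3,2,4,3,5,7,1,6,0,4,2,3,0,2,3,2,3,2,2,0,3,2,4,0,7,1,6,5,3,4,2,3,5,1,2,1,5,4,3,4,2,5,0,1,2,0]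

theorem wM_let : ∀ g ∈ wM, g < 8 := by decide +kernel
theorem wMi_let : ∀ g ∈ wMi, g < 8 := by decide +kernel
theorem RM0 : relsF (tX wM wMi) M11Tab.rels 0 = true := by decide +kernel
theorem RM1 : relsF (tX wM wMi) M11Tab.rels 110790 = true := by decide +kernel
theorem RM2 : relsF (tX wM wMi) M11Tab.rels 58654 = true := by decide +kernel
theorem RM3 : relsF (tX wM wMi) M11Tab.rels 58658 = true := by decide +kernel
theorem RM4 : relsF (tX wM wMi) M11Tab.rels 58555 = true := by decide +kernel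
theorem RM5 : relsF (tX wM wMi) M11Tab.rels 80918 = true := by decide +kernel

theorem RM_one : ∀ w ∈ M11Tab.rels, evalWord S.v (w.flatMap (ex wM wMi)) = 1 :=
  eval_rels wM_let wMi_let _ RM0 RM1 RM2 RM3 RM4 RM5

theorem inv_M : evalWord S.v wMi = (evalWord S.v wM)⁻¹ := by
  have h := RM_one [1, 2] (by decide +kernel)
  have e : ([1, 2] : List ℕ).flatMap (ex wM wMi) = wM ++ wMi := by
    simp [ex]
  rw [e, evalWord_app] at h
  exact eq_inv_of_mul_eq_one_right h

theorem rel_M : ∀ w ∈ M11Tab.rels, evalWord (vv (evalWord S.v [0]) (evalWord S.v wM)) w = 1 := by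
  intro w hw
  rw [← eval_exp inv_M]
  exact RM_one w hw

theorem exists_M11 : ∃ K : Subgroup φ.range, Cfsg.IsM11 K :=
  sub_of_relators _ _ M11Tab.rels rel_M x_ne (fun X _ => Cfsg.IsM11 X)
    (fun X _ a b h1 h2 h3 => M11Con.isM11_of_relators a b h1 h2 h3)

/-! ### The statement -/

theorem isON_range : Cfsg.IsON φ.range := by
  have h := ONMain.main.1
  exact ⟨(MonoidHom.ofInjective hinj).symm.isSimpleGroup, card_range⟩

theorem pretrans : MulAction.IsPretransitive φ.range (Fin C.n) := by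
  refine ⟨fun i j => ?_⟩
  have h : j ∈ MulAction.orbit φ.range i := by
    rw [orbit_range]
    trivial
  exact h

theorem card_stab (p : Fin C.n) : Nat.card (MulAction.stabilizer φ.range p) = 3753792 := by
  classical
  have hc2 : Nat.card (MulAction.orbit φ.range p) * Nat.card (MulAction.stabilizer φ.range p) = Nat.card φ.range := by
    simpa only [Nat.card_eq_fintype_card] using MulAction.card_orbit_mul_card_stabilizer_eq_card_group φ.range p
  rw [card_orbit_range, card_range] at hc2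
  omega

theorem main : ∃ H : Subgroup (Equiv.Perm (Fin 122760)), Cfsg.IsON H ∧ MulAction.IsPretransitive H (Fin 122760) ∧
    Nat.card (MulAction.stabilizer H (0 : Fin 122760)) = 3753792 ∧ (∃ K : Subgroup H, Cfsg.IsJ1 K) ∧
    (∃ K : Subgroup H, Cfsg.IsM11 K) :=
  ⟨φ.range, isON_range, pretrans, card_stab _, exists_J1, exists_M11⟩

end Cfsg.Agent.Lib.FiKit.ONSub
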