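import Cfsg.Agent.Lib.PermKit.Final
import Cfsg.Agent.Lib.FiKit.Basic

/-!
# Classes of 3-transpositions in groups given by coded permutations
-/

set_option autoImplicit false
set_option linter.unusedSectionVars false

namespace Cfsg.Agent.Lib.FiKit

open Equiv Cfsg.Agent.Lib.Compute Cfsg.Agent.Lib.PermKit MulAction

variable {α : Type*} [Fintype α] [DecidableEq α] {n : ℕ} {E : Enc α n} {rows : ℕ → ℕ → ℕ} {m : ℕ}

/-- A permutation fixing the points of a list is one of two. -/
theorem eq_one_or_of_fix {t : Perm α} {ft : ℕ → ℕ} (ht : t ∈ autG E rows m) (hcode : E.IsCode t ft)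
    (htt : t * t = 1) {F : List ℕ} {bl : ℕ} {lops fops : List Op} {fin : List ℕ} (hF : ∀ x ∈ F, x < n) (hbl : bl < n)
    (h1 : levelOK n m rows F bl [ft] [] lops 2 = true) (h2 : finalOK n m rows (bl :: F) fops fin = true)
    {σ : Perm α} (hσ : σ ∈ autG E rows m) (hfix : ∀ x ∈ F, σ (E.pt x) = E.pt x) : σ = 1 ∨ σ = t := by
  have hle : Subgroup.zpowers t ≤ autG E rows m := by
    rw [Subgroup.zpowers_le]
    exact ht
  have h3 : stabN E (autG E rows m) F ≤ Subgroup.zpowers t := by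
    refine level_gen hbl hF (K := Subgroup.zpowers t) (fs := [ft]) (fun f hf => ?_) h1 (fun τ hτ => ?_) hle
    · rw [List.mem_singleton.1 hf]
      exact ⟨t, Subgroup.mem_zpowers t, hcode⟩
    · rw [final_bot h2 hτ]
      exact Subgroup.one_mem _
  have h4 : σ ∈ stabN E (autG E rows m) F := by
    refine ⟨hσ, fun y hy => ?_⟩
    obtain ⟨x, hx, rfl⟩ := List.mem_map.1 hy
    exact hfix x hx
  obtain ⟨k, hk⟩ := Subgroup.mem_zpowers_iff.1 (h3 h4)
  rcases Int.even_or_odd' k with ⟨j, rfl | rfl⟩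
  · left
    rw [← hk, zpow_mul, zpow_two, htt, one_zpow]
  · right
    rw [← hk, zpow_add, zpow_mul, zpow_two, htt, one_zpow, one_mul, zpow_one]

/-- The centraliser of the class member is the stabiliser of its point. -/
theorem stab_iff_comm {H : Subgroup (Perm α)} [Nontrivial α] [IsPreprimitive H α] (hHA : H ≤ autG E rows m) (hm : 0 < m)
    {t : H} {ft : ℕ → ℕ} (hcode : E.IsCode t.1 ft) (htt : t * t = 1) (ht1 : t ≠ 1)
    {F : List ℕ} {b bl : ℕ} {lops fops : List Op} {fin : List ℕ} (hF : ∀ x ∈ F, x < n) (hb : b < n) (hbl : bl < n)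
    (hbF : b ∈ F) (hFc : ∀ x, x < n → (rows 0 b).testBit x = true → x ∈ F)
    (hFb : ∀ x ∈ F, x = b ∨ (rows 0 b).testBit x = true)
    (hfix : ∀ x ∈ F, t.1 (E.pt x) = E.pt x)
    (h1 : levelOK n m rows F bl [ft] [] lops 2 = true) (h2 : finalOK n m rows (bl :: F) fops fin = true)
    (g : H) : g • E.pt b = E.pt b ↔ g * t = t * g := by
  have htt' : t.1 * t.1 = 1 := congrArg Subtype.val htt
  have hfwd : ∀ g : H, g • E.pt b = E.pt b → g * t = t * g := by
    intro g hg
    have hg' : g.1 (E.pt b) = E.pt b := hg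
    have hgA := hHA g.2
    set σ : Perm α := g.1 * t.1 * g.1⁻¹ with hσ
    have hσA : σ ∈ autG E rows m :=
      (autG E rows m).mul_mem ((autG E rows m).mul_mem hgA (hHA t.2)) ((autG E rows m).inv_mem hgA)
    have hfixσ : ∀ x ∈ F, σ (E.pt x) = E.pt x := by
      intro x hx
      have hxn := hF x hx
      set z := g.1⁻¹ (E.pt x) with hz
      have hgz : g.1 z = E.pt x := by simp [hz]
      have hzF : E.idx z ∈ F := by
        rcases hFb x hx with hxb | hxb
        · have h5 : z = E.pt b := by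
            rw [hz, hxb, Perm.inv_eq_iff_eq, hg']
          rw [h5, E.idx_pt b hb]
          exact hbF
        · apply hFc _ (E.idx_lt z)
          have h3 : RelR E rows 0 (g.1 (E.pt b)) (g.1 z) := by
            rw [hg', hgz]
            unfold RelR
            rw [E.idx_pt b hb, E.idx_pt x hxn]
            exact hxb
          have h4 := (relR_iff E hgA hm _ _).1 h3
          unfold RelR at h4
          rwa [E.idx_pt b hb] at h4
      have h6 := hfix _ hzF
      rw [E.pt_idx] at h6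
      rw [hσ, Perm.mul_apply, Perm.mul_apply, ← hz, h6, hgz]
    rcases eq_one_or_of_fix (hHA t.2) hcode htt' hF hbl h1 h2 hσA hfixσ with h3 | h3
    · exfalso
      apply ht1
      apply Subtype.ext
      have h4 : g.1 * t.1 = g.1 := by
        calc g.1 * t.1 = σ * g.1 := by rw [hσ]; group
          _ = g.1 := by rw [h3, one_mul]
      show t.1 = 1
      exact mul_left_cancel (a := g.1) (by rw [h4, mul_one])
    · apply Subtype.ext
      show g.1 * t.1 = t.1 * g.1
      calc g.1 * t.1 = σ * g.1 := by rw [hσ]; group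
        _ = t.1 * g.1 := by rw [h3]
  refine ⟨hfwd g, fun hc => ?_⟩
  by_contra hne
  -- the centraliser is a proper overgroup of a maximal subgroup
  have hco := IsPreprimitive.isCoatom_stabilizer_of_isPreprimitive (G := H) (E.pt b)
  let Cn : Subgroup H := Subgroup.centralizer {t}
  have hle : stabilizer H (E.pt b) ≤ Cn := by
    intro k hk
    rw [Subgroup.mem_centralizer_singleton_iff]
    exact hfwd k hk
  have hgC : g ∈ Cn := by
    rw [Subgroup.mem_centralizer_singleton_iff]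
    exact hc
  have hlt : stabilizer H (E.pt b) < Cn := lt_of_le_of_ne hle (fun h => hne (by
    have h3 : g ∈ stabilizer H (E.pt b) := by rw [h]; exact hgC
    exact h3))
  have htop : Cn = ⊤ := hco.2 _ hlt
  apply ht1
  apply Subtype.ext
  refine Equiv.ext fun x => ?_
  obtain ⟨k, hk⟩ := MulAction.exists_smul_eq H (E.pt b) x
  have hkC : k ∈ Cn := by rw [htop]; exact Subgroup.mem_top k
  rw [Subgroup.mem_centralizer_singleton_iff] at hkC
  have hk' : k.1 (E.pt b) = x := hk
  have hc' : k.1 * t.1 = t.1 * k.1 := congrArg Subtype.val hkC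
  have htb : t.1 (E.pt b) = E.pt b := hfix b hbF
  show t.1 x = x
  rw [← hk', ← Perm.mul_apply, ← hc', Perm.mul_apply, htb]

/-- The set of a class of transpositions, from the data of a chain and a few computations. -/
theorem class_main {H : Subgroup (Perm α)} [Nontrivial α] [IsPreprimitive H α] [IsSimpleGroup H]
    (hHA : H ≤ autG E rows m) (hm : 0 < m)
    {t : H} {ft : ℕ → ℕ} (hcode : E.IsCode t.1 ft) (htt : t * t = 1) (ht1 : t ≠ 1)
    {F : List ℕ} {b bl : ℕ} {lops fops : List Op} {fin : List ℕ} (hF : ∀ x ∈ F, x < n) (hb : b < n) (hbl : bl < n)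
    (hbF : b ∈ F) (hFc : ∀ x, x < n → (rows 0 b).testBit x = true → x ∈ F)
    (hFb : ∀ x ∈ F, x = b ∨ (rows 0 b).testBit x = true)
    (hfix : ∀ x ∈ F, t.1 (E.pt x) = E.pt x)
    (h1 : levelOK n m rows F bl [ft] [] lops 2 = true) (h2 : finalOK n m rows (bl :: F) fops fin = true)
    {fs : List (ℕ → ℕ)} (hfs : ∀ f ∈ fs, InK E (stabN E H [b]) f) {q₁ q₂ : ℕ} (hq₁ : q₁ < n) (hq₂ : q₂ < n)
    (hcov : allBelow (fun i => bcond (Nat.beq i b) true
      (bcond (tb (bfs fs (Nat.succ n) q₁) i) true (tb (bfs fs (Nat.succ n) q₂) i))) n = true)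
    (u₁ u₂ : H) (hu₁ : u₁.1 (E.pt b) = E.pt q₁) (hu₂ : u₂.1 (E.pt b) = E.pt q₂)
    (h21 : (t * (u₁ * t * u₁⁻¹)) ^ 2 = 1) (h32 : (t * (u₂ * t * u₂⁻¹)) ^ 3 = 1) :
    Cfsg.IsThreeTranspositionClass (conjugatesOf t) ∧ Nat.card (conjugatesOf t) = Nat.card α ∧
      (∀ g : H, g • E.pt b = E.pt b ↔ g * t = t * g) := by
  have hC := stab_iff_comm hHA hm hcode htt ht1 hF hb hbl hbF hFc hFb hfix h1 h2
  have hord : orderOf t = 2 := orderOf_eq_prime (by rw [pow_two]; exact htt) ht1
  have hcases : ∀ x : α, x = E.pt b ∨ (∃ h : H, h • E.pt b = E.pt b ∧ h • x = E.pt q₁) ∨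
      (∃ h : H, h • E.pt b = E.pt b ∧ h • x = E.pt q₂) := by
    intro x
    have h3 := (allBelow_iff _ _).1 hcov (E.idx x) (E.idx_lt x)
    have hreach : ∀ q, q < n → (bfs fs (Nat.succ n) q).testBit (E.idx x) = true →
        ∃ h : H, h • E.pt b = E.pt b ∧ h • x = E.pt q := by
      intro q hq hb2
      obtain ⟨_, τ, hτ, ht⟩ := bfs_reach hfs hq hb2
      rw [E.pt_idx] at ht
      have hτb : τ (E.pt b) = E.pt b := hτ.2 _ (by simp)
      refine ⟨⟨τ⁻¹, H.inv_mem hτ.1⟩, ?_, ?_⟩
      · show τ⁻¹ (E.pt b) = E.pt b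
        rw [Perm.inv_eq_iff_eq, hτb]
      · show τ⁻¹ x = E.pt q
        rw [Perm.inv_eq_iff_eq]
        exact ht.symm
    cases hb1 : Nat.beq (E.idx x) b
    · rw [hb1, bcond_false] at h3
      cases hb2 : tb (bfs fs (Nat.succ n) q₁) (E.idx x)
      · rw [hb2, bcond_false, tb_eq] at h3
        exact Or.inr (Or.inr (hreach q₂ hq₂ h3))
      · rw [tb_eq] at hb2
        exact Or.inr (Or.inl (hreach q₁ hq₁ hb2))
    · left
      have h4 := Nat.eq_of_beq_eq_true hb1
      rw [← h4, E.pt_idx]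
  have hT1 : tauF t (E.pt b) (E.pt q₁) = u₁ * t * u₁⁻¹ := by
    rw [← hu₁]
    exact tau_smul hC u₁
  have hT2 : tauF t (E.pt b) (E.pt q₂) = u₂ * t * u₂⁻¹ := by
    rw [← hu₂]
    exact tau_smul hC u₂
  refine ⟨⟨threeSet_of hC hord hcases (by rw [hT1]; exact h21) (by rw [hT2]; exact h32),
    ⟨t, mem_conjugatesOf_self, rfl⟩, closure_conjugates ht1⟩, card_conjugates hC, hC⟩

end Cfsg.Agent.Lib.FiKit
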