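import Cfsg.Agent.Lib.PermKit.Final
import Cfsg.Agent.Lib.Compute.Orbit

/-!
# Small facts about coded permutations
-/

set_option autoImplicit false
set_option linter.unusedSectionVars false

namespace Cfsg.Agent.Lib.FiKit

open Equiv Cfsg.Agent.Lib.Compute Cfsg.Agent.Lib.PermKit

variable {α : Type*} [Fintype α] [DecidableEq α] {n : ℕ} {E : Enc α n}

/-- The code of a product. -/
theorem code_mul {σ τ : Perm α} {f g : ℕ → ℕ} (hf : E.IsCode σ f) (hg : E.IsCode τ g) :
    E.IsCode (σ * τ) (fun i => f (g i)) := by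
  intro a
  show f (g (E.idx a)) = E.idx (σ (τ a))
  rw [hg, hf]

/-- The value of a coded permutation on a point. -/
theorem apply_pt {σ : Perm α} {f : ℕ → ℕ} (hf : E.IsCode σ f) {b q : ℕ} (hb : b < n) (h : f b = q) :
    σ (E.pt b) = E.pt q := by
  have h1 := hf (E.pt b)
  rw [E.idx_pt b hb, h] at h1
  rw [h1, E.pt_idx]

/-- An involution. -/
theorem mul_self_of_code {σ : Perm α} {f : ℕ → ℕ} (hf : E.IsCode σ f)
    (h : allBelow (fun i => Nat.beq (f (f i)) i) n = true) : σ * σ = 1 :=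
  eq_of_isCode_all (code_mul hf hf) (g := fun i => i) (τ := 1) (fun _ => rfl) h

/-- Not the identity. -/
theorem ne_one_of_code {σ : Perm α} {f : ℕ → ℕ} (hf : E.IsCode σ f) {b : ℕ} (hb : b < n) (h : f b ≠ b) : σ ≠ 1 := by
  rintro rfl
  apply h
  have h1 := hf (E.pt b)
  rw [E.idx_pt b hb] at h1
  rw [h1]
  exact E.idx_pt b hb

/-- A power of a conjugate relation. -/
theorem conj_pow_of_code {t u v : Perm α} {ft fu fv : ℕ → ℕ} (ht : E.IsCode t ft) (hu : E.IsCode u fu)
    (hv : E.IsCode v fv) (huv : allBelow (fun i => Nat.beq (fv (fu i)) i) n = true) {k : ℕ}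
    (h : allBelow (fun i => Nat.beq (iterF (fun i => ft (fu (ft (fv i)))) k i) i) n = true) :
    (t * (u * t * u⁻¹)) ^ k = 1 := by
  have h1 : v * u = 1 := eq_of_isCode_all (code_mul hv hu) (g := fun i => i) (τ := 1) (fun _ => rfl) huv
  have h2 : u⁻¹ = v := (eq_inv_of_mul_eq_one_left h1).symm
  rw [h2]
  have h3 : E.IsCode (t * (u * t * v)) (fun i => ft (fu (ft (fv i)))) := by
    intro a
    show ft (fu (ft (fv (E.idx a)))) = E.idx (t (u (t (v a))))
    rw [hv, ht, hu, ht]
  exact eq_of_isCode_all (iterF_isCode E h3 k) (g := fun i => i) (τ := 1) (fun _ => rfl) h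

/-- A power of a commutator. -/
theorem comm_pow_of_code {x y c t : Perm α} {fx fy fc ft : ℕ → ℕ} (hx : E.IsCode x fx) (hy : E.IsCode y fy)
    (hc : E.IsCode c fc) (ht : E.IsCode t ft)
    (h1 : allBelow (fun i => Nat.beq (fc (fy (fx i))) (fx (fy i))) n = true) {e : ℕ}
    (h2 : allBelow (fun i => Nat.beq (iterF fc e i) (ft i)) n = true) :
    (x * y * x⁻¹ * y⁻¹) ^ e = t := by
  have h3 : c * (y * x) = x * y :=
    eq_of_isCode_all (code_mul hc (code_mul hy hx)) (code_mul hx hy) h1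
  have h4 : x * y * x⁻¹ * y⁻¹ = c := by
    rw [← h3]
    group
  rw [h4]
  exact eq_of_isCode_all (iterF_isCode E hc e) ht h2

end Cfsg.Agent.Lib.FiKit
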