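import Cfsg.Agent.Lib.TC.Chain

/-!
Groups generated by two elements satisfying a list of relators, with an upper bound for the order from a coset
enumeration certificate, and the identification of such a group with a known simple group.
-/

set_option autoImplicit false

namespace Cfsg.Agent.Lib.FiKit.TwoGen

open Cfsg.Agent.Lib.TC

section Letters

variable {K : Type*} [Group K]

/-- The values of the letters: `a`, `b`, `b⁻¹`, and the trivial letter. -/
def vv (a b : K) : ℕ → K
  | 0 => a
  | 1 => b
  | 2 => b⁻¹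
  | _ => 1

@[simp] theorem vv_zero (a b : K) : vv a b 0 = a := rfl
@[simp] theorem vv_one (a b : K) : vv a b 1 = b := rfl
@[simp] theorem vv_two (a b : K) : vv a b 2 = b⁻¹ := rfl
theorem vv_ge (a b : K) {g : ℕ} (h : 3 ≤ g) : vv a b g = 1 := by
  match g, h with
  | (k + 3), _ => rfl

theorem evalWord_eq_prod (v : ℕ → K) (w : List ℕ) : evalWord v w = (w.map v).prod := by
  induction w with
  | nil => simp
  | cons g w ih => simp [ih]

theorem evalWord_app (v : ℕ → K) (u w : List ℕ) : evalWord v (u ++ w) = evalWord v u * evalWord v w := by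
  rw [evalWord_eq_prod, evalWord_eq_prod, evalWord_eq_prod, List.map_append, List.prod_append]

theorem evalWord_flatten_replicate (v : ℕ → K) (w : List ℕ) (k : ℕ) :
    evalWord v (List.replicate k w).flatten = (evalWord v w) ^ k := by
  induction k with
  | zero => simp
  | succ k ih =>
    rw [List.replicate_succ, List.flatten_cons, evalWord_app, ih, pow_succ']

theorem map_vv {H : Type*} [Group H] (f : K →* H) (a b : K) (g : ℕ) :
    f (vv a b g) = vv (f a) (f b) g := by
  match g with
  | 0 => rfl
  | 1 => rfl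
  | 2 => simp [vv]
  | (k + 3) => simp [vv]

theorem map_eval_vv {H : Type*} [Group H] (f : K →* H) (a b : K) (w : List ℕ) :
    f (evalWord (vv a b) w) = evalWord (vv (f a) (f b)) w := by
  rw [map_evalWord]
  congr 1
  funext g
  exact map_vv f a b g

/-- The inverses of the letters. -/
def invL : ℕ → ℕ
  | 0 => 0
  | 1 => 2
  | 2 => 1
  | n => n

/-- The bound for the order of a group generated by two elements, from a certificate for the cyclic subgroup
generated by a word. -/
theorem card_le_of_cert (c : Cert) (a b : K) (hgen : Subgroup.closure ({a, b} : Set K) = ⊤) (haa : a * a = 1)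
    (wsub : List ℕ) (k n : ℕ) (hk : 0 < k) (hpow : (evalWord (vv a b) wsub) ^ k = 1)
    (hsz : c.sz = 4) (hep : c.ep = 3)
    (hE : ∀ q, c.K ≤ q → c.E q = 0)
    (hwords : ∀ j, j < c.nW → ∀ h ∈ c.W j, h < c.sz)
    (hrel : ∀ j, j < c.nrel → evalWord (vv a b) (c.W j) = 1)
    (hnle : c.nrel ≤ c.nW)
    (hsub : ∀ j, j < c.nW → c.nrel ≤ j → c.W j = wsub)
    (hcheck : ∀ q, q < c.K → c.chk q = true)
    (nm : ℕ → ℕ) (T : ℕ → ℕ → ℕ) (hn : 0 < n) (hnm0 : nm 0 = 0)
    (hfin : ∀ i, i < n → ptFin2 n 3 T nm c.sz c.ep c.b c.m c.E c.fuel i = true) :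
    Nat.card K ≠ 0 ∧ Nat.card K ≤ k * n := by
  set w : K := evalWord (vv a b) wsub with hw
  have hgen' : Subgroup.closure (Set.range fun x : Fin 2 => vv a b x.val) = ⊤ := by
    have : (Set.range fun x : Fin 2 => vv a b x.val) = ({a, b} : Set K) := by
      ext y
      constructor
      · rintro ⟨x, rfl⟩
        fin_cases x
        · exact Set.mem_insert _ _
        · exact Set.mem_insert_of_mem _ rfl
      · rintro (rfl | rfl)
        · exact ⟨0, rfl⟩
        · exact ⟨1, rfl⟩
    rw [this]
    exact hgen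
  have hvinv : ∀ x : Fin 2, vv a b (invL x.val) = (vv a b x.val)⁻¹ := by
    intro x
    fin_cases x
    · exact eq_inv_of_mul_eq_one_left haa
    · rfl
  have hidx := index_le_of_cert (Subgroup.zpowers w) (vv a b) c (ι := Fin 2) (fun x => x.val) invL hgen' hvinv
    (by omega) (by rw [hep]; rfl) hE hwords hrel hnle
    (fun j hj hj' => by
      rw [hsub j hj hj']
      exact Subgroup.mem_zpowers w)
    hcheck n 3 nm T hn hnm0 (by omega) (fun x => by have := x.2; omega)
    (fun x => by
      fin_cases x
      · show (0 : ℕ) < 3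
        omega
      · show (2 : ℕ) < 3
        omega)
    (fun i hi g hg => ptFin2_spec (hfin i hi) g hg)
  have hfo : IsOfFinOrder w := isOfFinOrder_iff_pow_eq_one.2 ⟨k, hk, hpow⟩
  have hord : 0 < orderOf w := hfo.orderOf_pos
  have hcardL : Nat.card (Subgroup.zpowers w) = orderOf w := Nat.card_zpowers w
  have hmul := Subgroup.card_mul_index (Subgroup.zpowers w)
  rw [hcardL] at hmul
  rw [← hmul]
  refine ⟨Nat.mul_ne_zero hord.ne' hidx.1, Nat.mul_le_mul (orderOf_le_of_pow_eq_one hk hpow) hidx.2⟩

end Letters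

section Transfer

/-- A group generated by two elements satisfying the relators of a known simple group, and nontrivial, is that simple
group, as soon as the relators bound the order of every such group. -/
theorem simple_of_relators {K G : Type} [Group K] [Group G] [Finite G] (N : ℕ) (R : List (List ℕ))
    (bound : ∀ (X : Type) [Group X] (x y : X), Subgroup.closure ({x, y} : Set X) = ⊤ →
      (∀ w ∈ R, evalWord (vv x y) w = 1) → Nat.card X ≠ 0 ∧ Nat.card X ≤ N)
    (hG : IsSimpleGroup G) (hcard : Nat.card G = N)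
    (a b : K) (a0 b0 : G) (hrel : ∀ w ∈ R, evalWord (vv a b) w = 1) (hrel0 : ∀ w ∈ R, evalWord (vv a0 b0) w = 1)
    (hgen : Subgroup.closure ({a, b} : Set K) = ⊤) (hgen0 : Subgroup.closure ({a0, b0} : Set G) = ⊤)
    (hne : a ≠ 1) : IsSimpleGroup K ∧ Nat.card K = N := by
  classical
  -- the diagonal subgroup
  let p : K × G := (a, a0)
  let q : K × G := (b, b0)
  let D : Subgroup (K × G) := Subgroup.closure ({p, q} : Set (K × G))
  let x : D := ⟨p, Subgroup.subset_closure (Set.mem_insert _ _)⟩
  let y : D := ⟨q, Subgroup.subset_closure (Set.mem_insert_of_mem _ rfl)⟩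
  have hgD : Subgroup.closure ({x, y} : Set D) = ⊤ := by
    have h1 := Subgroup.closure_closure_coe_preimage (k := ({p, q} : Set (K × G)))
    have h2 : (((↑) : D → K × G) ⁻¹' ({p, q} : Set (K × G))) = ({x, y} : Set D) := by
      ext z
      constructor
      · rintro (h | h)
        · exact Or.inl (Subtype.ext h)
        · exact Or.inr (Subtype.ext h)
      · rintro (h | h)
        · rw [h]
          exact Or.inl rfl
        · rw [h]
          exact Or.inr rfl
    rw [← h2]
    exact h1
  let π₁ : D →* K := (MonoidHom.fst K G).comp D.subtype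
  let π₂ : D →* G := (MonoidHom.snd K G).comp D.subtype
  have h₁x : π₁ x = a := rfl
  have h₁y : π₁ y = b := rfl
  have h₂x : π₂ x = a0 := rfl
  have h₂y : π₂ y = b0 := rfl
  have hrD : ∀ w ∈ R, evalWord (vv x y) w = 1 := by
    intro w hw
    have e1 : π₁ (evalWord (vv x y) w) = 1 := by
      rw [map_eval_vv, h₁x, h₁y]
      exact hrel w hw
    have e2 : π₂ (evalWord (vv x y) w) = 1 := by
      rw [map_eval_vv, h₂x, h₂y]
      exact hrel0 w hw
    apply Subtype.ext
    exact Prod.ext e1 e2
  obtain ⟨hD0, hDN⟩ := bound D x y hgD hrD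
  have hfinD : Finite D := Nat.finite_of_card_ne_zero hD0
  have hsurj : ∀ {X : Type} [Group X] (f : D →* X) (u v : X), f x = u → f y = v →
      Subgroup.closure ({u, v} : Set X) = ⊤ → Function.Surjective f := by
    intro X _ f u v hu hv hc
    rw [← MonoidHom.range_eq_top, eq_top_iff, ← hc, Subgroup.closure_le]
    rintro z (rfl | rfl)
    · exact ⟨x, hu⟩
    · exact ⟨y, hv⟩
  have hs₁ := hsurj π₁ a b h₁x h₁y hgen
  have hs₂ := hsurj π₂ a0 b0 h₂x h₂y hgen0
  have hi₂ : Function.Injective π₂ := by
    have h3 : Nat.card G ≤ Nat.card D := Nat.card_le_card_of_surjective _ hs₂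
    exact ((Nat.bijective_iff_surjective_and_card π₂).2 ⟨hs₂, le_antisymm (hDN.trans hcard.ge) h3⟩).1
  have e₂ : D ≃* G := MulEquiv.ofBijective π₂ ⟨hi₂, hs₂⟩
  have hDs : IsSimpleGroup D := e₂.isSimpleGroup
  have hi₁ : Function.Injective π₁ := by
    rcases hDs.eq_bot_or_eq_top_of_normal π₁.ker inferInstance with h | h
    · exact (MonoidHom.ker_eq_bot_iff _).1 h
    · exfalso
      apply hne
      rw [← h₁x]
      have : x ∈ π₁.ker := by rw [h]; trivial
      exact this
  have e₁ : D ≃* K := MulEquiv.ofBijective π₁ ⟨hi₁, hs₁⟩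
  have hcD : Nat.card D = N := by
    rw [Nat.card_congr e₂.toEquiv, hcard]
  refine ⟨e₁.symm.isSimpleGroup, ?_⟩
  rw [← Nat.card_congr e₁.toEquiv, hcD]

end Transfer

end Cfsg.Agent.Lib.FiKit.TwoGen
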