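import Cfsg.Agent.Lib.HeGrp.SpGen
import Cfsg.Prelude.Def_Classical

/-!
# Coordinates for the six-dimensional space over the field with four elements
-/

set_option autoImplicit false

namespace Cfsg.Agent.Lib.FiKit.U6

open Cfsg.Agent.Lib.Classical.FF4 Cfsg.Agent.Lib.Compute Cfsg.Agent.Lib.HeGrp.SpF

/-- The space. -/
abbrev V6 := Fin 6 → F4

/-- The code of a vector. -/
def vidx6 (v : V6) : ℕ :=
  dig (v 0) + 4 * dig (v 1) + 16 * dig (v 2) + 64 * dig (v 3) + 256 * dig (v 4) + 1024 * dig (v 5)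

/-- The vector of a code. -/
def vpt6 (n : ℕ) : V6 :=
  ![undig n, undig (n / 4), undig (n / 16), undig (n / 64), undig (n / 256), undig (n / 1024)]

lemma digits6 (v : V6) : vidx6 v < 4096 ∧ vidx6 v % 4 = dig (v 0) ∧ vidx6 v / 4 % 4 = dig (v 1) ∧
    vidx6 v / 16 % 4 = dig (v 2) ∧ vidx6 v / 64 % 4 = dig (v 3) ∧ vidx6 v / 256 % 4 = dig (v 4) ∧
    vidx6 v / 1024 % 4 = dig (v 5) := by
  have h0 := dig_lt (v 0)
  have h1 := dig_lt (v 1)
  have h2 := dig_lt (v 2)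
  have h3 := dig_lt (v 3)
  have h4 := dig_lt (v 4)
  have h5 := dig_lt (v 5)
  unfold vidx6
  omega

lemma vpt6_vidx6 (v : V6) : vpt6 (vidx6 v) = v := by
  obtain ⟨_, e0, e1, e2, e3, e4, e5⟩ := digits6 v
  funext i
  fin_cases i
  · show undig (vidx6 v) = _
    rw [undig_mod, e0, undig_dig]
    rfl
  · show undig (vidx6 v / 4) = _
    rw [undig_mod, e1, undig_dig]
    rfl
  · show undig (vidx6 v / 16) = _
    rw [undig_mod, e2, undig_dig]
    rfl
  · show undig (vidx6 v / 64) = _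
    rw [undig_mod, e3, undig_dig]
    rfl
  · show undig (vidx6 v / 256) = _
    rw [undig_mod, e4, undig_dig]
    rfl
  · show undig (vidx6 v / 1024) = _
    rw [undig_mod, e5, undig_dig]
    rfl

lemma vidx6_vpt6 {n : ℕ} (hn : n < 4096) : vidx6 (vpt6 n) = n := by
  show dig (undig n) + 4 * dig (undig (n / 4)) + 16 * dig (undig (n / 16)) + 64 * dig (undig (n / 64))
    + 256 * dig (undig (n / 256)) + 1024 * dig (undig (n / 1024)) = n
  rw [dig_undig, dig_undig, dig_undig, dig_undig, dig_undig, dig_undig]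
  omega

lemma vidx6_inj {u v : V6} (h : vidx6 u = vidx6 v) : u = v := by
  rw [← vpt6_vidx6 u, h, vpt6_vidx6]

/-- The multiplication table of the digits. -/
def mulD (a b : ℕ) : ℕ :=
  bcond (Nat.beq a 0) 0 (bcond (Nat.beq b 0) 0 (bcond (Nat.beq a 1) b (bcond (Nat.beq b 1) a
    (bcond (Nat.beq a b) (bcond (Nat.beq a 2) 3 2) 1))))

lemma dig_mul (a b : F4) : dig (a * b) = mulD (dig a) (dig b) := by
  revert a b
  decide

lemma dig_add (a b : F4) : dig (a + b) = Nat.xor (dig a) (dig b) := by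
  revert a b
  decide

/-- The digit of a code. -/
def dg (x i : ℕ) : ℕ := (x / 4 ^ i) % 4

/-- The form on codes. -/
def hermC (x v : ℕ) : ℕ :=
  Nat.xor (Nat.xor (Nat.xor (Nat.xor (Nat.xor (mulD (dg x 0) (mulD (dg v 0) (dg v 0)))
    (mulD (dg x 1) (mulD (dg v 1) (dg v 1)))) (mulD (dg x 2) (mulD (dg v 2) (dg v 2))))
    (mulD (dg x 3) (mulD (dg v 3) (dg v 3)))) (mulD (dg x 4) (mulD (dg v 4) (dg v 4))))
    (mulD (dg x 5) (mulD (dg v 5) (dg v 5)))

lemma dg_vidx (v : V6) : dg (vidx6 v) 0 = dig (v 0) ∧ dg (vidx6 v) 1 = dig (v 1) ∧ dg (vidx6 v) 2 = dig (v 2) ∧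
    dg (vidx6 v) 3 = dig (v 3) ∧ dg (vidx6 v) 4 = dig (v 4) ∧ dg (vidx6 v) 5 = dig (v 5) := by
  obtain ⟨_, e0, e1, e2, e3, e4, e5⟩ := digits6 v
  refine ⟨?_, ?_, ?_, ?_, ?_, ?_⟩
  · simpa [dg] using e0
  · simpa [dg] using e1
  · simpa [dg] using e2
  · simpa [dg] using e3
  · simpa [dg] using e4
  · simpa [dg] using e5

theorem dig_herm (x v : V6) : dig (Cfsg.hermForm 6 F4 2 x v) = hermC (vidx6 x) (vidx6 v) := by
  obtain ⟨a0, a1, a2, a3, a4, a5⟩ := dg_vidx x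
  obtain ⟨b0, b1, b2, b3, b4, b5⟩ := dg_vidx v
  unfold hermC
  rw [a0, a1, a2, a3, a4, a5, b0, b1, b2, b3, b4, b5]
  simp only [Cfsg.hermForm, Fin.sum_univ_six, pow_two, dig_add, dig_mul]

/-- The scalar multiple of a code. -/
def scC (c v : ℕ) : ℕ :=
  mulD c (dg v 0) + 4 * mulD c (dg v 1) + 16 * mulD c (dg v 2) + 64 * mulD c (dg v 3) + 256 * mulD c (dg v 4)
    + 1024 * mulD c (dg v 5)

theorem vidx_smul (c : F4) (v : V6) : vidx6 (c • v) = scC (dig c) (vidx6 v) := by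
  obtain ⟨b0, b1, b2, b3, b4, b5⟩ := dg_vidx v
  unfold scC
  rw [b0, b1, b2, b3, b4, b5]
  unfold vidx6
  simp only [Pi.smul_apply, smul_eq_mul, dig_mul]

/-- The transvection on codes: `x + ⟨x, v⟩ v`. -/
def tvC (v x : ℕ) : ℕ :=
  Nat.xor (dg x 0) (mulD (hermC x v) (dg v 0)) + 4 * Nat.xor (dg x 1) (mulD (hermC x v) (dg v 1))
    + 16 * Nat.xor (dg x 2) (mulD (hermC x v) (dg v 2)) + 64 * Nat.xor (dg x 3) (mulD (hermC x v) (dg v 3))
    + 256 * Nat.xor (dg x 4) (mulD (hermC x v) (dg v 4)) + 1024 * Nat.xor (dg x 5) (mulD (hermC x v) (dg v 5))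

theorem vidx_tv (v x : V6) : vidx6 (x + (Cfsg.hermForm 6 F4 2 x v) • v) = tvC (vidx6 v) (vidx6 x) := by
  obtain ⟨a0, a1, a2, a3, a4, a5⟩ := dg_vidx x
  obtain ⟨b0, b1, b2, b3, b4, b5⟩ := dg_vidx v
  unfold tvC
  rw [← dig_herm x v]
  rw [a0, a1, a2, a3, a4, a5, b0, b1, b2, b3, b4, b5]
  unfold vidx6
  simp only [Pi.add_apply, Pi.smul_apply, smul_eq_mul, dig_add, dig_mul]

end Cfsg.Agent.Lib.FiKit.U6
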