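import Cfsg.Agent.Lib.FiKit.U6Rep
import Cfsg.Agent.Lib.FiKit.Cover
import Cfsg.Agent.Lib.FiKit.Perm

/-!
# The centraliser of a transposition with quotient `PSU₆(2)`
-/

set_option autoImplicit false
set_option linter.unusedSectionVars false

namespace Cfsg.Agent.Lib.FiKit.U6

open Cfsg.Agent.Lib.Classical Cfsg.Agent.Lib.Classical.FF4 Cfsg.Agent.Lib.Compute Cfsg.Agent.Lib.HeGrp.SpF
open Cfsg.Agent.Lib.Classical.UT Equiv Cfsg.Agent.Lib.PermKit MulAction
open scoped commutatorElement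

section unitary

variable {k : ℕ} [NeZero k] {rep pidx : ℕ → ℕ} (hP : PtOK k rep pidx)

/-- The code of the image of a transvection. -/
noncomputable def tvCode (rep pidx : ℕ → ℕ) (j i : ℕ) : ℕ := pidx (tvC (rep j) (rep i))

theorem bigT_code (j i : Fin k) : ((bigT hP j i : Fin k) : ℕ) = tvCode rep pidx j i := by
  have h1 : vidx6 (tv B6 (iotaV rep j) 1 (iotaV rep i)) = tvC (rep j) (rep i) := by
    rw [UT.tv_apply, B6_apply, one_mul, vidx_tv, vidx_iota hP, vidx_iota hP]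
  have hne : tv B6 (iotaV rep j) 1 (iotaV rep i) ≠ 0 := by
    intro h0
    have h2 := (tvT hP j).1.injective (a₁ := iotaV rep i) (a₂ := 0) (by
      rw [tvT_apply hP, h0, map_zero])
    exact iota_ne hP i h2
  have hiso : Cfsg.hermForm 6 F4 2 (tv B6 (iotaV rep j) 1 (iotaV rep i)) (tv B6 (iotaV rep j) 1 (iotaV rep i)) = 0 := by
    have h3 := TG_iso hS6 (tvT hP j).2 (iotaV rep i) (iotaV rep i)
    rw [iota_B hP, tvT_apply hP] at h3
    exact h3
  have hh : hermC (tvC (rep j) (rep i)) (tvC (rep j) (rep i)) = 0 := by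
    rw [← h1, ← dig_herm, hiso]
    rfl
  have hv0 : tvC (rep j) (rep i) ≠ 0 := by
    intro h0
    apply hne
    apply vidx6_inj
    rw [h1, h0]
    rfl
  obtain ⟨h5, c, hc0, hc4, hc⟩ := hP.cov _ (by rw [← h1]; exact (digits6 _).1) hv0 hh
  have h6 : Prop6 (tv B6 (iotaV rep j) 1 (iotaV rep i)) (iotaV rep ⟨pidx (tvC (rep j) (rep i)), h5⟩) := by
    refine ⟨undig c, ?_, ?_⟩
    · intro h0
      have h2 := dig_undig c
      rw [h0] at h2
      have h3 : dig (0 : F4) = 0 := by decide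
      rw [h3] at h2
      omega
    · apply vidx6_inj
      rw [vidx_smul, dig_undig, Nat.mod_eq_of_lt hc4, vidx_iota hP, h1]
      exact hc.symm
  have h7 := piT_spec hP (tvT hP j) i
  rw [tvT_apply hP] at h7
  have h8 := iota_inj hP _ _ (prop6_trans _ _ _ (prop6_symm _ _ h7) h6)
  unfold bigT tvCode
  rw [h8]

end unitary

variable {α : Type*} [Fintype α] [DecidableEq α] {n : ℕ} {E : Enc α n} {rows : ℕ → ℕ → ℕ} {m : ℕ}

section glue

variable {H : Subgroup (Perm α)} {t : H} {b : ℕ}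
variable {k : ℕ} [NeZero k] {nrep nidx rep pidx : ℕ → ℕ}

/-- The data of the neighbours of a point. -/
structure NbrOK (E : Enc α n) (rows : ℕ → ℕ → ℕ) (b k : ℕ) (nrep nidx : ℕ → ℕ) : Prop where
  lt : ∀ i, i < k → nrep i < n
  rel : ∀ i, i < k → (rows 0 b).testBit (nrep i) = true
  left_inv : ∀ i, i < k → nidx (nrep i) = i
  cov : ∀ y, y < n → (rows 0 b).testBit y = true → nidx y < k ∧ nrep (nidx y) = y

/-- The action of the centraliser on the neighbours. -/
theorem exists_rho (hHA : H ≤ autG E rows m) (hm : 0 < m) (hb : b < n)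
    (hC : ∀ g : H, g • E.pt b = E.pt b ↔ g * t = t * g) (hN : NbrOK E rows b k nrep nidx) :
    ∃ ρ : Subgroup.centralizer ({t} : Set H) →* Perm (Fin k),
      ∀ (x : Subgroup.centralizer ({t} : Set H)) (i : Fin k), x.1.1 (E.pt (nrep i)) = E.pt (nrep (ρ x i)) := by
  let act : Subgroup.centralizer ({t} : Set H) →* Perm α := H.subtype.comp (Subgroup.centralizer ({t} : Set H)).subtype
  have hinj : ∀ y y' : Fin k, E.pt (nrep y) = E.pt (nrep y') → y = y' := by
    intro y y' h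
    have h1 := congrArg E.idx h
    rw [E.idx_pt _ (hN.lt y y.2), E.idx_pt _ (hN.lt y' y'.2)] at h1
    apply Fin.ext
    rw [← hN.left_inv y y.2, ← hN.left_inv y' y'.2, h1]
  refine exists_hom act (fun u v => u = v) (fun _ => rfl) (fun _ _ h => h.symm) (fun _ _ _ h h' => h.trans h') ?_
    (fun i : Fin k => E.pt (nrep i)) hinj ?_
  · rintro g u v rfl
    rfl
  · intro x i
    have hx : x.1 • E.pt b = E.pt b := (hC x.1).2 (Subgroup.mem_centralizer_singleton_iff.1 x.2)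
    have hx' : x.1.1 (E.pt b) = E.pt b := hx
    have h1 : RelR E rows 0 (E.pt b) (E.pt (nrep i)) := by
      unfold RelR
      rw [E.idx_pt b hb, E.idx_pt _ (hN.lt i i.2)]
      exact hN.rel i i.2
    have h2 := hHA x.1.2 0 hm _ _ h1
    rw [hx'] at h2
    unfold RelR at h2
    rw [E.idx_pt b hb] at h2
    obtain ⟨h3, h4⟩ := hN.cov _ (E.idx_lt _) h2
    refine ⟨⟨_, h3⟩, ?_⟩
    show x.1.1 (E.pt (nrep i)) = E.pt (nrep (nidx (E.idx (x.1.1 (E.pt (nrep i))))))
    rw [h4, E.pt_idx]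

/-- The main theorem of the glueing: the centralisers are non-split double covers of `PSU₆(2)`. -/
theorem nonsplit_PSU (hHA : H ≤ autG E rows m) (hm : 0 < m) (hb : b < n)
    (hC : ∀ g : H, g • E.pt b = E.pt b ↔ g * t = t * g) (hN : NbrOK E rows b k nrep nidx)
    (hP : PtOK k rep pidx) (ht1 : t ≠ 1)
    (htfix : ∀ i, i < k → t.1 (E.pt (nrep i)) = E.pt (nrep i))
    (hJ : ∀ σ : H, σ • E.pt b = E.pt b → (∀ i, i < k → σ.1 (E.pt (nrep i)) = E.pt (nrep i)) → σ = 1 ∨ σ = t)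
    {js : List ℕ} (hjs : ∀ j ∈ js, j < k ∧ ∃ τ : H, τ • E.pt b = E.pt b ∧
      ∀ i, i < k → τ.1 (E.pt (nrep i)) = E.pt (nrep (tvCode rep pidx j i)))
    {i₀ : ℕ} (hi₀ : i₀ ∈ js)
    (hbfs : allBelow (fun i => tb (bfs (js.map (tvCode rep pidx)) (Nat.succ k) i₀) i) k = true)
    (hinj : ∀ i, i < k → i ≠ i₀ → ∃ x, x < k ∧ tvCode rep pidx i x ≠ tvCode rep pidx i₀ x)
    [Finite H]
    (hcard : Nat.card (stabilizer H (E.pt b)) = 2 * 9196830720)
    (hw : ∃ (x y : Subgroup.centralizer ({t} : Set H)) (e : ℕ), ⁅x, y⁆ ^ e = ⟨t, self_mem_cen t⟩) :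
    ∀ d ∈ conjugatesOf t, Cfsg.IsNonsplitDoubleCover (Subgroup.centralizer ({d} : Set H)) (Cfsg.PSU 6 F4 2) := by
  obtain ⟨ρ₁, hρ₁⟩ := exists_rho hHA hm hb hC hN
  -- injectivity of the labelling
  have hlab : ∀ i j : Fin k, E.pt (nrep i) = E.pt (nrep j) → i = j := by
    intro y y' h
    have h1 := congrArg E.idx h
    rw [E.idx_pt _ (hN.lt y y.2), E.idx_pt _ (hN.lt y' y'.2)] at h1
    apply Fin.ext
    rw [← hN.left_inv y y.2, ← hN.left_inv y' y'.2, h1]
  -- the kernel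
  have hker₁ : ∀ x, ρ₁ x = 1 ↔ x.1 = 1 ∨ x.1 = t := by
    intro x
    constructor
    · intro h
      have hx : x.1 • E.pt b = E.pt b := (hC x.1).2 (Subgroup.mem_centralizer_singleton_iff.1 x.2)
      refine hJ x.1 hx fun i hi => ?_
      have h1 := hρ₁ x ⟨i, hi⟩
      rw [h] at h1
      exact h1
    · rintro (h | h)
      · have h1 : x = 1 := Subtype.ext h
        rw [h1, map_one]
      · ext i
        have h1 := hρ₁ x i
        rw [h, htfix i i.2] at h1
        have h2 := hlab _ _ h1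
        rw [← h2]
        rfl
  -- the transvections
  have hbig : ∀ j (hj : j < k), bigT hP ⟨j, hj⟩ ∈ ρ₁.range ∨ j ∉ js := by
    intro j hj
    by_cases hjj : j ∈ js
    · left
      obtain ⟨_, τ, hτ, hτ2⟩ := hjs j hjj
      refine ⟨⟨τ, Subgroup.mem_centralizer_singleton_iff.2 ((hC τ).1 hτ)⟩, ?_⟩
      ext i
      have h1 := hρ₁ ⟨τ, Subgroup.mem_centralizer_singleton_iff.2 ((hC τ).1 hτ)⟩ i
      have h2 := hτ2 i i.2
      have h3 : ((bigT hP ⟨j, hj⟩ i : Fin k) : ℕ) = tvCode rep pidx j i := bigT_code hP ⟨j, hj⟩ i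
      rw [← h3] at h2
      have h4 := hlab _ _ (h1.symm.trans h2)
      rw [h4]
    · exact Or.inr hjj
  let Wg : Subgroup (Perm (Fin k)) := Subgroup.closure {σ | ∃ (j : ℕ) (hj : j < k), j ∈ js ∧ σ = bigT hP ⟨j, hj⟩}
  have hW1 : Wg ≤ ρ₁.range := by
    rw [Subgroup.closure_le]
    rintro σ ⟨j, hj, hjj, rfl⟩
    exact (hbig j hj).resolve_right (fun h => h hjj)
  have hW2 : Wg ≤ (piT hP).range := by
    rw [Subgroup.closure_le]
    rintro σ ⟨j, hj, _, rfl⟩
    exact ⟨tvT hP ⟨j, hj⟩, rfl⟩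
  have hi₀k : i₀ < k := (hjs i₀ hi₀).1
  let I₀ : Fin k := ⟨i₀, hi₀k⟩
  have hcodes : ∀ f ∈ js.map (tvCode rep pidx), InK (encF k) Wg f := by
    intro f hf
    obtain ⟨j, hj, rfl⟩ := List.mem_map.1 hf
    have hjk := (hjs j hj).1
    refine ⟨bigT hP ⟨j, hjk⟩, Subgroup.subset_closure ⟨j, hjk, hj, rfl⟩, fun a => ?_⟩
    exact (bigT_code hP ⟨j, hjk⟩ a).symm
  have hreach : ∀ i : Fin k, ∃ τ ∈ Wg, τ I₀ = i := by
    intro i
    have h1 := (allBelow_iff _ _).1 hbfs i i.2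
    rw [tb_eq] at h1
    obtain ⟨_, τ, hτ, h2⟩ := bfs_reach hcodes hi₀k h1
    refine ⟨τ, hτ, ?_⟩
    have h3 : (encF k).pt i₀ = I₀ := by
      apply Fin.ext
      exact (encF k).idx_pt i₀ hi₀k
    have h4 : (encF k).pt (i : ℕ) = i := by
      apply Fin.ext
      exact (encF k).idx_pt i i.2
    rw [h3, h4] at h2
    exact h2
  have hallT : ∀ i : Fin k, bigT hP i ∈ Wg := by
    intro i
    obtain ⟨τ, hτ, hi⟩ := hreach i
    obtain ⟨g, rfl⟩ := hW2 hτ
    rw [← hi, ← conj_bigT hP g I₀]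
    refine Wg.mul_mem (Wg.mul_mem hτ ?_) (Wg.inv_mem hτ)
    exact Subgroup.subset_closure ⟨i₀, hi₀k, hi₀, rfl⟩
  have hW3 : (piT hP).range ≤ Wg := range_le hP Wg hallT
  -- the orders
  have hstab : Nat.card (Subgroup.centralizer ({t} : Set H)) = 2 * 9196830720 := by
    rw [← hcard]
    apply Nat.card_congr
    apply Equiv.subtypeEquivRight
    intro g
    rw [Subgroup.mem_centralizer_singleton_iff, mem_stabilizer_iff, hC]
  have hkercard : Nat.card ρ₁.ker = 2 := by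
    have h1 : ((ρ₁.ker : Subgroup _) : Set (Subgroup.centralizer ({t} : Set H))) = {1, ⟨t, self_mem_cen t⟩} := by
      ext x
      show ρ₁ x = 1 ↔ _
      rw [hker₁]
      simp only [Set.mem_insert_iff, Set.mem_singleton_iff]
      constructor
      · rintro (h | h)
        · exact Or.inl (Subtype.ext h)
        · exact Or.inr (Subtype.ext h)
      · rintro (h | h)
        · exact Or.inl (by rw [h]; rfl)
        · exact Or.inr (by rw [h])
    have h2 : Nat.card ρ₁.ker = Set.ncard ((ρ₁.ker : Subgroup _) : Set (Subgroup.centralizer ({t} : Set H))) := by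
      rw [← Nat.card_coe_set_eq]
      rfl
    rw [h2, h1, Set.ncard_pair]
    intro h
    exact ht1 (congrArg Subtype.val h).symm
  have hrangecard : Nat.card ρ₁.range = 9196830720 := by
    have h1 := ρ₁.ker.card_eq_card_quotient_mul_card_subgroup
    rw [Nat.card_congr (QuotientGroup.quotientKerEquivRange ρ₁).toEquiv, hkercard, hstab] at h1
    omega
  have hfin : Finite (Perm (Fin k)) := inferInstance
  have heq : (piU (k := k) hP).range = ρ₁.range := by
    apply Subgroup.eq_of_le_of_card_ge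
    · rw [piU_range]
      exact hW3.trans hW1
    · rw [hrangecard, card_range]
  -- the centre
  have hcen : ∀ z ∈ ρ₁.range, (∀ w ∈ ρ₁.range, z * w = w * z) → z = 1 := by
    intro z hz hzc
    have hz2 : z ∈ (piT hP).range := by
      rw [← piU_range, heq]
      exact hz
    obtain ⟨g, rfl⟩ := hz2
    have h1 := conj_bigT hP g I₀
    have h2 : piT hP g * bigT hP I₀ * (piT hP g)⁻¹ = bigT hP I₀ := by
      rw [hzc _ (show bigT hP I₀ ∈ ρ₁.range from hW1 (Subgroup.subset_closure ⟨i₀, hi₀k, hi₀, rfl⟩))]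
      group
    rw [h2] at h1
    have h3 : piT hP g I₀ = I₀ := by
      by_contra hne
      have hne' : ((piT hP g I₀ : Fin k) : ℕ) ≠ i₀ := fun h => hne (Fin.ext h)
      obtain ⟨x, hx, hx2⟩ := hinj _ (piT hP g I₀).2 hne'
      apply hx2
      have h5 := bigT_code hP (piT hP g I₀) ⟨x, hx⟩
      have h6 := bigT_code hP I₀ ⟨x, hx⟩
      rw [h1] at h6
      exact h5.symm.trans h6
    ext i
    obtain ⟨τ, hτ, rfl⟩ := hreach i
    have h4 := hzc τ (hW1 hτ)
    have h5 : (piT hP g * τ) I₀ = (τ * piT hP g) I₀ := by rw [h4]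
    rw [Perm.mul_apply, Perm.mul_apply, h3] at h5
    rw [h5]
    rfl
  -- the homomorphism
  obtain ⟨ρ, hρs, hρk⟩ := exists_quot_hom ρ₁ (piU (k := k) hP) heq
  let e := QuotientGroup.quotientMulEquivOfEq (piU_ker (k := k) hP)
  let ρ' : Subgroup.centralizer ({t} : Set H) →* Cfsg.PSU 6 F4 2 := e.toMonoidHom.comp ρ
  have hρ's : Function.Surjective ρ' := e.surjective.comp hρs
  have hρ'k : ∀ x, ρ' x = 1 ↔ ρ₁ x = 1 := by
    intro x
    rw [← hρk]
    show e (ρ x) = 1 ↔ _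
    rw [map_eq_one_iff _ e.injective]
  refine nonsplit_class ρ' hρ's (fun h => ht1 h) (fun x => ?_) (fun y hy => ?_) hw
  · rw [hρ'k, hker₁]
  · obtain ⟨x, rfl⟩ := hρ's y
    rw [hρ'k]
    apply hcen _ ⟨x, rfl⟩
    rintro _ ⟨x', rfl⟩
    have h1 : ρ' (x * x' * x⁻¹ * x'⁻¹) = 1 := by
      rw [map_mul, map_mul, map_mul, hy, map_inv, map_inv]
      group
    have h2 := (hρ'k _).1 h1
    rw [map_mul, map_mul, map_mul, map_inv, map_inv] at h2
    rw [← map_mul, ← map_mul]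
    have h3 : ρ₁ x * ρ₁ x' * (ρ₁ x)⁻¹ * (ρ₁ x')⁻¹ = 1 := h2
    rw [map_mul, map_mul]
    calc ρ₁ x * ρ₁ x' = ρ₁ x * ρ₁ x' * (ρ₁ x)⁻¹ * (ρ₁ x')⁻¹ * (ρ₁ x' * ρ₁ x) := by group
      _ = ρ₁ x' * ρ₁ x := by rw [h3, one_mul]

end glue

end Cfsg.Agent.Lib.FiKit.U6
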