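import Cfsg.Agent.Lib.FiKit.U6Code
import Cfsg.Agent.Lib.FiKit.Hom
import Cfsg.Agent.Lib.Classical.UTBridge
import Cfsg.Agent.Lib.Classical.UTSimple2
import Cfsg.Agent.S0278

/-!
# The unitary group of dimension six over the field with four elements on its isotropic points
-/

set_option autoImplicit false
set_option linter.unusedSectionVars false

namespace Cfsg.Agent.Lib.FiKit.U6

open Cfsg.Agent.Lib.Classical Cfsg.Agent.Lib.Classical.FF4 Cfsg.Agent.Lib.Compute Cfsg.Agent.Lib.HeGrp.SpF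
open Cfsg.Agent.Lib.Classical.UT Equiv Witt

lemma hF4 : Fintype.card F4 = 2 ^ 2 := by
  rw [card_F4]
  norm_num

/-- The form. -/
noncomputable abbrev B6 : V6 →ₛₗ[conjQ hF4] V6 →ₗ[F4] F4 := hermB hF4 6

lemma B6_apply (u v : V6) : B6 u v = Cfsg.hermForm 6 F4 2 v u := rfl

/-- Proportional vectors. -/
def Prop6 (u v : V6) : Prop := ∃ c : F4, c ≠ 0 ∧ u = c • v

lemma prop6_refl (v : V6) : Prop6 v v := ⟨1, one_ne_zero, (one_smul _ _).symm⟩

lemma prop6_symm (u v : V6) (h : Prop6 u v) : Prop6 v u := by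
  obtain ⟨c, hc, rfl⟩ := h
  exact ⟨c⁻¹, inv_ne_zero hc, by rw [smul_smul, inv_mul_cancel₀ hc, one_smul]⟩

lemma prop6_trans (u v w : V6) (h : Prop6 u v) (h' : Prop6 v w) : Prop6 u w := by
  obtain ⟨c, hc, rfl⟩ := h
  obtain ⟨d, hd, rfl⟩ := h'
  exact ⟨c * d, mul_ne_zero hc hd, by rw [smul_smul]⟩

lemma dig_eq_zero {a : F4} (h : dig a = 0) : a = 0 := by
  revert a
  decide

lemma dig_one : dig (1 : F4) = 1 := by decide

/-- The check of the data of the isotropic points. -/
noncomputable def checkPts (k : ℕ) (rep pidx : ℕ → ℕ) : Bool :=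
  allBelow (fun i => Nat.blt (rep i) 4096 && (!Nat.beq (rep i) 0) && Nat.beq (hermC (rep i) (rep i)) 0 &&
    Nat.beq (pidx (scC 1 (rep i))) i && Nat.beq (pidx (scC 2 (rep i))) i && Nat.beq (pidx (scC 3 (rep i))) i) k &&
  allBelow (fun v => bcond (Nat.beq v 0) true (bcond (Nat.beq (hermC v v) 0)
    (Nat.blt (pidx v) k && (Nat.beq (scC 1 (rep (pidx v))) v || Nat.beq (scC 2 (rep (pidx v))) v ||
      Nat.beq (scC 3 (rep (pidx v))) v)) true)) 4096

/-- The data of the isotropic points. -/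
structure PtOK (k : ℕ) (rep pidx : ℕ → ℕ) : Prop where
  rep_lt : ∀ i, i < k → rep i < 4096
  rep_ne : ∀ i, i < k → rep i ≠ 0
  rep_iso : ∀ i, i < k → hermC (rep i) (rep i) = 0
  sc : ∀ i, i < k → ∀ c, c ≠ 0 → c < 4 → pidx (scC c (rep i)) = i
  cov : ∀ v, v < 4096 → v ≠ 0 → hermC v v = 0 → pidx v < k ∧ ∃ c, c ≠ 0 ∧ c < 4 ∧ scC c (rep (pidx v)) = v

theorem ptOK_of_check {k : ℕ} {rep pidx : ℕ → ℕ} (h : checkPts k rep pidx = true) : PtOK k rep pidx := by
  unfold checkPts at h
  rw [Bool.and_eq_true] at h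
  obtain ⟨h1, h2⟩ := h
  have h1' := fun i hi => (allBelow_iff _ _).1 h1 i hi
  have h2' := fun v hv => (allBelow_iff _ _).1 h2 v hv
  simp only [Bool.and_eq_true, Bool.not_eq_true'] at h1'
  refine ⟨fun i hi => ?_, fun i hi => ?_, fun i hi => ?_, fun i hi c hc0 hc4 => ?_, fun v hv hv0 hviso => ?_⟩
  · have := (h1' i hi).1.1.1.1.1
    exact Nat.le_of_ble_eq_true this
  · have := (h1' i hi).1.1.1.1.2
    exact Nat.ne_of_beq_eq_false this
  · exact Nat.eq_of_beq_eq_true (h1' i hi).1.1.1.2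
  · have h3 := h1' i hi
    have : c = 1 ∨ c = 2 ∨ c = 3 := by omega
    rcases this with rfl | rfl | rfl
    · exact Nat.eq_of_beq_eq_true h3.1.1.2
    · exact Nat.eq_of_beq_eq_true h3.1.2
    · exact Nat.eq_of_beq_eq_true h3.2
  · have h3 := h2' v hv
    have h4 : Nat.beq v 0 = false := by
      cases h5 : Nat.beq v 0
      · rfl
      · exact absurd (Nat.eq_of_beq_eq_true h5) hv0
    have h5 : Nat.beq (hermC v v) 0 = true := by rw [hviso]; rfl
    rw [h4, bcond_false, h5, bcond_true, Bool.and_eq_true, Bool.or_eq_true, Bool.or_eq_true] at h3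
    refine ⟨Nat.le_of_ble_eq_true h3.1, ?_⟩
    rcases h3.2 with (h6 | h6) | h6
    · exact ⟨1, by norm_num, by norm_num, Nat.eq_of_beq_eq_true h6⟩
    · exact ⟨2, by norm_num, by norm_num, Nat.eq_of_beq_eq_true h6⟩
    · exact ⟨3, by norm_num, by norm_num, Nat.eq_of_beq_eq_true h6⟩

section reps

variable {k : ℕ} {rep pidx : ℕ → ℕ} (hP : PtOK k rep pidx)

/-- The isotropic vector of an index. -/
def iotaV (rep : ℕ → ℕ) (i : Fin k) : V6 := vpt6 (rep i)

include hP

lemma vidx_iota (i : Fin k) : vidx6 (iotaV rep i) = rep i := vidx6_vpt6 (hP.rep_lt i i.2)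

lemma iota_iso (i : Fin k) : Cfsg.hermForm 6 F4 2 (iotaV rep i) (iotaV rep i) = 0 := by
  apply dig_eq_zero
  rw [dig_herm, vidx_iota hP, hP.rep_iso i i.2]

lemma iota_ne (i : Fin k) : iotaV rep i ≠ 0 := by
  intro h
  apply hP.rep_ne i i.2
  rw [← vidx_iota hP i, h]
  rfl

lemma iota_B (i : Fin k) : B6 (iotaV rep i) (iotaV rep i) = 0 := iota_iso hP i

lemma prop_iota (v : V6) (hv : v ≠ 0) (hiso : Cfsg.hermForm 6 F4 2 v v = 0) :
    ∃ i : Fin k, Prop6 v (iotaV rep i) := by
  have hv0 : vidx6 v ≠ 0 := by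
    intro h
    apply hv
    apply vidx6_inj
    rw [h]
    rfl
  have hh : hermC (vidx6 v) (vidx6 v) = 0 := by
    rw [← dig_herm, hiso]
    rfl
  obtain ⟨h1, c, hc0, hc4, hc⟩ := hP.cov _ (digits6 v).1 hv0 hh
  refine ⟨⟨_, h1⟩, undig c, ?_, ?_⟩
  · intro h0
    have h2 := dig_undig c
    rw [h0] at h2
    have h3 : dig (0 : F4) = 0 := by decide
    rw [h3] at h2
    omega
  · apply vidx6_inj
    rw [vidx_smul, dig_undig, Nat.mod_eq_of_lt hc4, vidx_iota hP]
    exact hc.symm

lemma iota_inj (i j : Fin k) (h : Prop6 (iotaV rep i) (iotaV rep j)) : i = j := by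
  obtain ⟨c, hc, hc2⟩ := h
  have h1 := congrArg vidx6 hc2
  rw [vidx_smul, vidx_iota hP, vidx_iota hP] at h1
  have hdc : dig c ≠ 0 := fun h0 => hc (dig_eq_zero h0)
  have h2 := hP.sc j j.2 (dig c) hdc (dig_lt c)
  rw [← h1] at h2
  have h3 := hP.sc i i.2 1 one_ne_zero (by norm_num)
  have h4 : scC 1 (rep i) = rep i := by
    have h5 := vidx_smul (1 : F4) (iotaV rep i)
    rw [one_smul, vidx_iota hP, dig_one] at h5
    exact h5.symm
  rw [h4] at h3
  apply Fin.ext
  rw [← h3, h2]

end reps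

/-- The symmetry of the form. -/
lemma hS6 : B6.IsSymm := hermB_symm hF4 6

/-- The group generated by the transvections. -/
noncomputable abbrev TT := TG B6

/-- Its action on the vectors. -/
noncomputable def actT : TT →* Perm V6 where
  toFun g := g.1.toEquiv
  map_one' := rfl
  map_mul' _ _ := rfl

@[simp] lemma actT_apply (g : TT) (v : V6) : actT g v = g.1 v := rfl

lemma c1 : (1 : F4) + 1 ^ 2 = 0 := by decide

section reps2

variable {k : ℕ} {rep pidx : ℕ → ℕ} (hP : PtOK k rep pidx)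

include hP in
theorem exists_piT : ∃ ρ : TT →* Perm (Fin k), ∀ (g : TT) (i : Fin k), Prop6 (actT g (iotaV rep i)) (iotaV rep (ρ g i)) := by
  refine exists_hom actT Prop6 prop6_refl prop6_symm prop6_trans ?_ (iotaV rep) (iota_inj hP) ?_
  · rintro g u v ⟨c, hc, rfl⟩
    refine ⟨c, hc, ?_⟩
    show g.1 (c • v) = c • g.1 v
    rw [map_smul]
  · intro g i
    apply prop_iota hP
    · intro h
      apply iota_ne hP i
      apply g.1.injective
      rw [map_zero]
      exact h
    · have h1 := TG_iso hS6 g.2 (iotaV rep i) (iotaV rep i)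
      rw [iota_B hP] at h1
      exact h1

/-- The representation on the isotropic points. -/
noncomputable def piT : TT →* Perm (Fin k) := (exists_piT hP).choose

theorem piT_spec (g : TT) (i : Fin k) : Prop6 (g.1 (iotaV rep i)) (iotaV rep (piT hP g i)) :=
  (exists_piT hP).choose_spec g i

/-- The transvection of a point. -/
noncomputable def tvT (i : Fin k) : TT := ⟨tvE B6 (iotaV rep i) 1 (iota_B hP i), tvE_mem (iota_B hP i) c1⟩

lemma tvT_apply (i : Fin k) (z : V6) : (tvT hP i).1 z = tv B6 (iotaV rep i) 1 z := rfl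

lemma f4_cube (c : F4) (hc : c ≠ 0) : 1 * c ^ 2 * c = 1 := by
  revert c
  decide

theorem conj_tvT (g : TT) (i : Fin k) : g * tvT hP i * g⁻¹ = tvT hP (piT hP g i) := by
  obtain ⟨c, hc, hc2⟩ := piT_spec hP g i
  apply Subtype.ext
  apply LinearEquiv.ext
  intro z
  show g.1 (tv B6 (iotaV rep i) 1 (g.1⁻¹ z)) = tv B6 (iotaV rep (piT hP g i)) 1 z
  rw [tv_conj (fun x y => TG_iso hS6 g.2 x y), hc2, tv_smul_v, f4_cube c hc]

/-- The image of a transvection. -/
noncomputable def bigT (i : Fin k) : Perm (Fin k) := piT hP (tvT hP i)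

theorem conj_bigT (g : TT) (i : Fin k) : piT hP g * bigT hP i * (piT hP g)⁻¹ = bigT hP (piT hP g i) := by
  unfold bigT
  rw [← conj_tvT hP g i, map_mul, map_mul, map_inv]

lemma f4_tr (c : F4) (h : c + c ^ 2 = 0) : c = 0 ∨ c = 1 := by
  revert c
  decide

/-- The image of the representation is generated by the images of the transvections. -/
theorem range_le (Wg : Subgroup (Perm (Fin k))) (hT : ∀ i, bigT hP i ∈ Wg) : (piT (k := k) hP).range ≤ Wg := by
  rintro _ ⟨g, rfl⟩
  obtain ⟨g, hg⟩ := g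
  induction hg using Subgroup.closure_induction with
  | mem x hx =>
    obtain ⟨v, c, hv, hc, hxv⟩ := hx
    rcases f4_tr c hc with rfl | rfl
    · have h1 : (⟨x, Subgroup.subset_closure ⟨v, 0, hv, hc, hxv⟩⟩ : TT) = 1 := by
        apply Subtype.ext
        apply LinearEquiv.ext
        intro z
        rw [hxv, UT.tv_zero]
        rfl
      rw [h1, map_one]
      exact Wg.one_mem
    · by_cases hv0 : v = 0
      · have h1 : (⟨x, Subgroup.subset_closure ⟨v, 1, hv, hc, hxv⟩⟩ : TT) = 1 := by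
          apply Subtype.ext
          apply LinearEquiv.ext
          intro z
          rw [hxv, tv_apply, hv0]
          simp
        rw [h1, map_one]
        exact Wg.one_mem
      · obtain ⟨i, a, ha, hai⟩ := prop_iota hP v hv0 hv
        have h1 : (⟨x, Subgroup.subset_closure ⟨v, 1, hv, hc, hxv⟩⟩ : TT) = tvT hP i := by
          apply Subtype.ext
          apply LinearEquiv.ext
          intro z
          show x z = tv B6 (iotaV rep i) 1 z
          rw [hxv, hai, tv_smul_v, f4_cube a ha]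
        rw [h1]
        exact hT i
  | one =>
    have h1 : (⟨1, Subgroup.one_mem _⟩ : TT) = 1 := rfl
    rw [h1, map_one]
    exact Wg.one_mem
  | mul x y hx hy ihx ihy =>
    have h1 : (⟨x * y, Subgroup.mul_mem _ hx hy⟩ : TT) = ⟨x, hx⟩ * ⟨y, hy⟩ := rfl
    rw [h1, map_mul]
    exact Wg.mul_mem ihx ihy
  | inv x hx ihx =>
    have h1 : (⟨x⁻¹, Subgroup.inv_mem _ hx⟩ : TT) = (⟨x, hx⟩ : TT)⁻¹ := rfl
    rw [h1, map_inv]
    exact Wg.inv_mem ihx

/-! ### The matrix group -/

/-- The matrix group into the group generated by the transvections. -/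
noncomputable def suTT : Cfsg.SU 6 F4 2 →* TT :=
  (fromSU 6 F4 2).codRestrict (TG B6) (fun A =>
    gen_main 6 V6 B6 hS6 (hermB_nondeg hF4 6) (by simp) (Or.inl (by norm_num)) (fromSU 6 F4 2 A)
      (fromSU_iso hF4 A) (fromSU_det A))

lemma suTT_surj : Function.Surjective suTT := by
  intro t
  obtain ⟨A, hA⟩ := exists_fromSU (n := 6) hF4 t.1 (TG_iso hS6 t.2) (TG_det t.2)
  exact ⟨A, Subtype.ext hA⟩

/-- The matrix group on the isotropic points. -/
noncomputable def piU : Cfsg.SU 6 F4 2 →* Perm (Fin k) := (piT hP).comp suTT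

theorem piU_range : (piU (k := k) hP).range = (piT hP).range := by
  unfold piU
  rw [MonoidHom.range_comp, MonoidHom.range_eq_map, ← MonoidHom.range_eq_map]
  rw [MonoidHom.range_eq_top.2 suTT_surj, ← MonoidHom.range_eq_map]

lemma suTT_apply (A : Cfsg.SU 6 F4 2) (x : V6) : (suTT A).1 x = fromSU 6 F4 2 A x := rfl

theorem piU_ker [NeZero k] : (piU (k := k) hP).ker = Subgroup.center (Cfsg.SU 6 F4 2) := by
  ext A
  rw [MonoidHom.mem_ker]
  constructor
  · intro hA
    have h1 : ∀ i : Fin k, Prop6 (fromSU 6 F4 2 A (iotaV rep i)) (iotaV rep i) := by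
      intro i
      have h2 := piT_spec hP (suTT A) i
      have h3 : piT hP (suTT A) = 1 := hA
      rw [h3] at h2
      exact h2
    have h4 : ∀ c : V6, c ≠ 0 → B6 c c = 0 → ∃ μ : F4, (fromSU 6 F4 2 A : V6 →ₗ[F4] V6) c = μ • c := by
      intro c hc0 hc
      obtain ⟨i, a, ha, hai⟩ := prop_iota hP c hc0 hc
      obtain ⟨μ, hμ, hμ2⟩ := h1 i
      refine ⟨μ, ?_⟩
      show fromSU 6 F4 2 A c = μ • c
      rw [hai, map_smul, hμ2, smul_comm]
    obtain ⟨μ, hμ⟩ := scalar_of_fix hS6 (hermB_nondeg hF4 6) (by simp) _ h4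
    rw [Subgroup.mem_center_iff]
    intro X
    apply fromSU_injective
    apply LinearEquiv.ext
    intro x
    rw [map_mul, map_mul]
    have hμ' : ∀ y, fromSU 6 F4 2 A y = μ • y := hμ
    show fromSU 6 F4 2 X (fromSU 6 F4 2 A x) = fromSU 6 F4 2 A (fromSU 6 F4 2 X x)
    rw [hμ', hμ', map_smul]
  · intro hA
    obtain ⟨c, hc | hc⟩ := center_scalar hF4 A hA
    · have h5 : ∀ x, fromSU 6 F4 2 A x = c • x := by
        intro x
        rw [fromSU_apply, hc, Matrix.smul_mulVec, Matrix.one_mulVec]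
      have hc0 : c ≠ 0 := by
        rintro rfl
        have h6 : fromSU 6 F4 2 A (Pi.single 0 1) = 0 := by
          rw [h5, zero_smul]
        have h7 := (fromSU 6 F4 2 A).injective (h6.trans (map_zero _).symm)
        have h8 := congrFun h7 0
        simp at h8
      show piT hP (suTT A) = 1
      ext i
      have h9 := piT_spec hP (suTT A) i
      have h10 : (suTT A).1 (iotaV rep i) = c • iotaV rep i := h5 _
      rw [h10] at h9
      have h11 : Prop6 (iotaV rep i) (iotaV rep (piT hP (suTT A) i)) :=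
        prop6_trans _ _ _ (prop6_symm _ _ ⟨c, hc0, rfl⟩) h9
      rw [← iota_inj hP _ _ h11]
      rfl
    · omega

/-- The order of the group. -/
theorem card_SU : Nat.card (Cfsg.SU 6 F4 2) = 27590492160 := by
  have h := Cfsg.Agent.S0278.result hF4 6 (by norm_num)
  simp [Finset.prod_range_succ, Nat.even_iff] at h
  omega

theorem card_center : Nat.card (Subgroup.center (Cfsg.SU 6 F4 2)) = 3 := by
  rw [card_center_SU hF4 (by norm_num)]
  rfl

/-- The order of the image. -/
theorem card_range [NeZero k] : Nat.card (piU (k := k) hP).range = 9196830720 := by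
  have h1 := (piU (k := k) hP).ker.card_eq_card_quotient_mul_card_subgroup
  rw [Nat.card_congr (QuotientGroup.quotientKerEquivRange (piU (k := k) hP)).toEquiv, piU_ker hP, card_center, card_SU] at h1
  omega

end reps2

end Cfsg.Agent.Lib.FiKit.U6
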